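import Cfsg.Agent.XS.Defs

set_option autoImplicit false
set_option linter.unusedSectionVars false

namespace Cfsg.Agent.XS

open Cfsg Cfsg.Geo Cfsg.Agent.H98 Cfsg.Agent.H99 Matrix
open Cfsg.Agent.N9 (pm dg On pm_apply dg_apply coe_dg pm_dg conj_pm mul_pm_apply pm_mul_apply dg_const)

variable {F : Type*} [Field F] [Fintype F] {ι : Type} [Fintype ι] [DecidableEq ι] {p : ℕ} {ζ : Fˣ}
  {w g : GL I F} {G : Subgroup (GL I F)} {e : ι → I} {v : GL ι F} {Γ K Q P : Subgroup (GL ι F)}

theorem CJ_trace : (jj F : Matrix I I F).trace = 1 := by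
  have k : ∀ i : I, i = -i ↔ i = 0 := by decide
  simp only [trace, diag_apply, jj_apply, k, Finset.sum_ite_eq', Finset.mem_univ, if_true]

theorem comm_j (c : g * jj F * g⁻¹ * (jj F)⁻¹ ∈ scalars I F) : g * jj F = jj F * g := by
  obtain ⟨z, hz⟩ := mem_scalars_iff'.1 c
  rw [mul_inv_eq_iff_eq_mul] at hz
  have h1 := congrArg (fun x : GL I F => (x : Matrix I I F).trace) hz
  simp only [Units.val_mul] at h1
  rw [trace_mul_cycle, Units.inv_mul, Matrix.one_mul, coe_scal, smul_mul_assoc, Matrix.one_mul, trace_smul,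
    CJ_trace, smul_eq_mul, mul_one] at h1
  rw [show z = 1 from Units.ext h1.symm, scal_one, one_mul] at hz
  exact mul_inv_eq_iff_eq_mul.1 hz

end Cfsg.Agent.XS
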