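import Cfsg.Agent.XS.W1
import Cfsg.Agent.H11.KvLift
import Cfsg.Agent.H22.PSolvable
import Cfsg.Agent.S4468

set_option autoImplicit false
set_option linter.unusedSectionVars false

namespace Cfsg.Agent.XS

open Cfsg Cfsg.Geo Cfsg.Agent.H98 Cfsg.Agent.H99 Matrix
open Cfsg.Agent.N9 (pm dg On pm_apply dg_apply coe_dg pm_dg conj_pm mul_pm_apply pm_mul_apply dg_const)

variable {F : Type*} [Field F] [Fintype F] {ι : Type} [Fintype ι] [DecidableEq ι] {p : ℕ} {ζ : Fˣ}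
  {w g : GL I F} {G : Subgroup (GL I F)} {e : ι → I} {v : GL ι F} {Γ K Q P : Subgroup (GL ι F)}

theorem hhb_pow {A : Type*} [Group A] {a : A} (h : a ^ 7 = 1) (k : ℤ) : (a ^ k) ^ 7 ^ 1 = 1 := by
  rw [pow_one, ← zpow_natCast, ← _root_.zpow_mul, mul_comm, _root_.zpow_mul, zpow_natCast, h, _root_.one_zpow]

theorem hhb_pg {A : Type*} [Group A] {a : A} (h : a ^ 7 = 1) : IsPGroup 7 (Subgroup.zpowers a) :=
  fun ⟨_, k, rfl⟩ => ⟨1, Subtype.ext (hhb_pow h k)⟩

theorem WH.hhb (h : WH p ζ e v Γ) (hp : ¬ p ∣ Nat.card Q) (h7 : ¬ 7 ∣ Nat.card Q)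
    (hn : ∀ y ∈ Q, ad ζ e * y * (ad ζ e)⁻¹ ∈ Q) : ∀ y ∈ Q, y * ad ζ e = ad ζ e * y := by
  have ha := h.ad_pow7 e
  generalize ad ζ e = a at hn ha ⊢
  have := Fact.mk h.prime
  have := h.char
  have hz : Subgroup.zpowers a ≤ Subgroup.normalizer (Q : Set (GL ι F)) :=
    Subgroup.zpowers_le.2 (Subgroup.mem_normalizer_fintype hn)
  let X := Q ⊔ Subgroup.zpowers a
  let N := Q.subgroupOf X
  have hN : N.Normal := Subgroup.normal_subgroupOf_of_le_normalizer (sup_le Subgroup.le_normalizer hz)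
  have cN : Nat.card N = Nat.card Q := Nat.card_congr (Subgroup.subgroupOfEquivOfLe le_sup_left).toEquiv
  let a' : X := ⟨a, Subgroup.mem_sup_right (Subgroup.mem_zpowers a)⟩
  have ha' : a' ^ 7 = 1 := Subtype.ext ha
  have hq : IsPGroup 7 (X ⧸ N) := fun x => by
    obtain ⟨⟨x, hx⟩, rfl⟩ := QuotientGroup.mk_surjective x
    have hx' : x ∈ ((Q ⊔ Subgroup.zpowers a : Subgroup _) : Set (GL ι F)) := hx
    rw [Subgroup.coe_mul_of_right_le_normalizer_left _ _ hz] at hx'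
    obtain ⟨q, hq, _, ⟨k, rfl⟩, rfl⟩ := hx'
    refine ⟨1, ?_⟩
    rw [show (⟨q * a ^ k, hx⟩ : X) = ⟨q, Subgroup.mem_sup_left hq⟩ * a' ^ k from rfl, QuotientGroup.mk_mul,
      (QuotientGroup.eq_one_iff _).2 (show (⟨q, Subgroup.mem_sup_left hq⟩ : X) ∈ N from hq), one_mul,
      ← QuotientGroup.mk_pow, hhb_pow ha', QuotientGroup.mk_one]
  have hX : ¬ p ∣ Nat.card X := fun c => by
    obtain ⟨k, hk⟩ := hq.exists_card_eq
    rw [Subgroup.card_eq_card_quotient_mul_card_subgroup N, hk, cN, h.prime.dvd_mul] at c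
    exact c.elim (fun c => h.ne7 ((Nat.prime_dvd_prime_iff_eq h.prime fact7.out).1 (h.prime.dvd_of_dvd_pow c))) hp
  obtain ⟨χ, h1, h2, h3⟩ := H11.Kv.exists_lift (F := F) (V := ι → F) hX
    ((Matrix.toLinAlgEquiv' (R := F) (n := ι)).toMonoidHom.comp ((Units.coeHom _).comp X.subtype))
    (Matrix.toLinAlgEquiv'.injective.comp (Units.val_injective.comp X.subtype_injective))
  rw [Module.finrank_fintype_fun_eq_card] at h2
  have c11 : (Nat.card N).Coprime 7 := cN ▸ (fact7.out.coprime_iff_not_dvd.2 h7).symm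
  obtain ⟨S, hS⟩ := (hhb_pg ha').exists_le_sylow
  have nS : (S : Subgroup X).Normal := by
    by_contra c
    have := (S4468.result χ h1 h3 (Fintype.card ι) (by simp [charDegree, h2]) 7 fact7.out
      (H22.isPSolvable_of_normal_of_quotient N (H22.isPSolvable_of_coprime c11) (H22.isPSolvable_of_isPGroup hq))
      (by have := h.six; omega) S c).1
    have := h.six
    omega
  intro y hy
  obtain ⟨k, hk⟩ := S.isPGroup'.exists_card_eq
  exact congrArg Subtype.val (Subgroup.commute_of_normal_of_disjoint N S hN nS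
    (disjoint_iff.2 (Subgroup.inf_eq_bot_of_coprime (hk ▸ c11.pow_right k)))
    ⟨y, Subgroup.mem_sup_left hy⟩ a' hy (hS (Subgroup.mem_zpowers _))).eq

theorem WH.idx (h : WH p ζ e v Γ) (hZ : scalars ι F ≤ K) (hn : ∀ y ∈ K, ad ζ e * y * (ad ζ e)⁻¹ ∈ K)
    (h7 : ¬ 7 ∣ (scalars ι F).relIndex K) : ∃ k, (Subgroup.centralizer {ad ζ e}).relIndex K = p ^ k := by
  refine ⟨_, Nat.eq_prime_pow_of_unique_prime_dvd Subgroup.FiniteIndex.index_ne_zero fun {l} hl hd => ?_⟩
  by_contra c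
  have := Fact.mk hl
  by_cases c11 : l = 7
  · exact h7 (c11 ▸ hd.trans (Subgroup.relIndex_dvd_of_le_left K fun z hz =>
      Subgroup.mem_centralizer_singleton_iff.2 (scalars_comm hz _)))
  let a : Subgroup.normalizer (K : Set (GL ι F)) := ⟨ad ζ e, Subgroup.mem_normalizer_fintype hn⟩
  let α : MulAut K := K.normalizerMonoidHom a
  have hα : α ^ 7 = 1 := by rw [← map_pow, show a ^ 7 = 1 from Subtype.ext (h.ad_pow7 e), map_one]
  obtain ⟨S, hS⟩ := (hhb_pg hα).nonempty_fixed_point_of_prime_not_dvd_card (Sylow l K) fun c => h7 (by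
    rw [Sylow.card_eq_index_normalizer (default : Sylow l K)] at c
    refine c.trans (Subgroup.index_dvd_of_le fun z hz => Subgroup.center_le_normalizer _ ?_)
    exact Subgroup.mem_center_iff.2 fun g => Subtype.ext (scalars_comm hz _).symm)
  have hS' : α • S = S := hS ⟨α, Subgroup.mem_zpowers α⟩
  obtain ⟨k, hk⟩ := S.isPGroup'.exists_card_eq
  have cQ : Nat.card ((S : Subgroup K).map K.subtype) = l ^ k := by rw [Subgroup.card_subtype, hk]
  have nd : ∀ {r : ℕ}, r.Prime → l ≠ r → ¬ r ∣ Nat.card ((S : Subgroup K).map K.subtype) := fun hr n c =>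
    n ((Nat.prime_dvd_prime_iff_eq hr hl).1 (hr.dvd_of_dvd_pow (cQ ▸ c))).symm
  have := h.hhb (nd h.prime c) (nd fact7.out c11) (by
    rintro _ ⟨y, hy, rfl⟩
    have : α • y ∈ ((α • S : Sylow l K) : Subgroup K) := Subgroup.smul_mem_pointwise_smul _ _ _ hy
    rw [hS'] at this
    exact ⟨_, this, rfl⟩)
  exact S.not_dvd_index (hd.trans (Subgroup.index_dvd_of_le fun y hy =>
    Subgroup.mem_centralizer_singleton_iff.2 (this _ ⟨y, hy, rfl⟩)))

end Cfsg.Agent.XS
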