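import Cfsg.Agent.XS.W2
import Cfsg.Agent.XS.HHB
import Cfsg.Agent.H98.Master

set_option autoImplicit false
set_option linter.unusedSectionVars false

namespace Cfsg.Agent.XS

open Cfsg Cfsg.Geo Cfsg.Agent.H98 Cfsg.Agent.H99 Matrix
open Cfsg.Agent.N9 (pm dg On pm_apply dg_apply coe_dg pm_dg conj_pm mul_pm_apply pm_mul_apply dg_const)

variable {F : Type*} [Field F] [Fintype F] {ι : Type} [Fintype ι] [DecidableEq ι] {p : ℕ} {ζ : Fˣ}
  {w g : GL I F} {G : Subgroup (GL I F)} {e : ι → I} {v : GL ι F} {Γ K Q P : Subgroup (GL ι F)}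

theorem WH.core (h : WH p ζ e v Γ) (h3 : Fintype.card ι = 3) : ∃ P, CoreData Γ P := by
  rcases master h.two Γ with k | k | ⟨a, b, ε, -, ha, hb, -⟩ | ⟨r, m, R, k⟩ | ⟨a, t, ε, _, k⟩ | k
  · exact absurd h.irr k
  · exact absurd k h.notZ
  · have := Fintype.card_congr ε
    rw [h3, Fintype.card_prod, Fintype.card_fin, Fintype.card_fin] at this
    rcases (Nat.dvd_prime Nat.prime_three).1 ⟨b, this⟩ with rfl | rfl <;> omega
  · exfalso
    have := Fact.mk k.prime
    have r5 : r = 3 := by
      have h1 : r ∣ 3 := by rw [← h3, k.card_index]; exact dvd_pow_self r (Nat.ne_of_gt k.pos)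
      exact (Nat.prime_dvd_prime_iff_eq k.prime Nat.prime_three).1 h1
    obtain ⟨n, hn⟩ := k.sympl.pGroup.exists_card_eq
    have hp : ¬ p ∣ Nat.card R := fun c => by
      have := h.char
      rw [hn] at c
      obtain rfl := (Nat.prime_dvd_prime_iff_eq h.prime k.prime).1 (h.prime.dvd_of_dvd_pow c)
      exact k.ne_char (CharP.cast_eq_zero F p)
    have h7 : ¬ 7 ∣ Nat.card R := fun c => by
      rw [hn, r5] at c
      exact absurd ((by norm_num : Nat.Prime 7).dvd_of_dvd_pow c) (by norm_num)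
    have k1 := h.hhb hp h7 (k.nz _ h.a)
    obtain ⟨x, hx, y, hy, c⟩ := exists_noncomm_of_span h.two k.span
    refine c (scalars_comm (h.scal' (k1 x hx) (k1 _ ?_)) y)
    simpa using k.nz _ (inv_mem h.vm) x hx
  · have := Fintype.card_congr ε
    rw [h3, Fintype.card_fun, Fintype.card_fin, Fintype.card_fin] at this
    have h1 := k.two_le_k
    have h2 := k.two_le_t
    have := (Nat.Prime.eq_one_of_pow (this ▸ Nat.prime_three))
    omega
  · exact k

theorem relIndex_dvd (hc : CoreData Γ P) :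
    (scalars ι F).relIndex Γ ∣ Nat.card (MulAut (P ⧸ (scalars ι F).subgroupOf P)) := by
  have key : ∀ h : Γ, ∃ a : MulAut (P ⧸ (scalars ι F).subgroupOf P), ∀ x (hx : x ∈ P),
      a (QuotientGroup.mk ⟨x, hx⟩) = QuotientGroup.mk ⟨h * x * h⁻¹, hc.normal h h.2 x hx⟩ := fun ⟨h, hh⟩ => by
    let c : P ≃* P :=
      { toFun := fun x => ⟨h * x * h⁻¹, hc.normal h hh x x.2⟩
        invFun := fun x => ⟨h⁻¹ * x * h⁻¹⁻¹, hc.normal h⁻¹ (Γ.inv_mem hh) x x.2⟩
        left_inv := fun x => Subtype.ext (by simp [mul_assoc])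
        right_inv := fun x => Subtype.ext (by simp [mul_assoc])
        map_mul' := fun x y => Subtype.ext (by simp [mul_assoc]) }
    have he : ((scalars ι F).subgroupOf P).map (c : P →* P) = (scalars ι F).subgroupOf P := by
      ext x
      constructor
      · rintro ⟨y, hy, rfl⟩
        exact scalars_normal.conj_mem _ hy h
      · intro hx
        exact ⟨c.symm x, scalars_normal.conj_mem _ hx h⁻¹, c.apply_symm_apply x⟩
    exact ⟨QuotientGroup.congr _ _ c he, fun x hx => rfl⟩
  choose a ha using key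
  let φ : Γ →* MulAut (P ⧸ (scalars ι F).subgroupOf P) := MonoidHom.mk' a fun g h => by
    ext q
    obtain ⟨⟨x, hx⟩, rfl⟩ := QuotientGroup.mk_surjective q
    rw [MulAut.mul_apply, ha, ha, ha]
    congr 2
    simp [mul_assoc]
  have hk : φ.ker ≤ (scalars ι F).subgroupOf Γ := fun h h1 => hc.centralizer_scalar h h.2 fun x hx => by
    have h2 := ha h x hx
    rw [show a h = 1 from h1, MulAut.one_apply, eq_comm, QuotientGroup.eq, Subgroup.mem_subgroupOf] at h2
    have := scalars_normal.conj_mem _ (inv_mem h2) x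
    simpa [mul_assoc] using this
  refine (Subgroup.index_dvd_of_le hk).trans ?_
  rw [Subgroup.index_ker]
  exact Subgroup.card_subgroup_dvd_card _

end Cfsg.Agent.XS
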