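import Cfsg.Agent.N9.Defs
import Cfsg.Agent.H98.Cases
import Cfsg.Agent.H99.Tv

/-! The normaliser of `7^(1+2)` in `GL₇`: definitions and calculus. -/

set_option autoImplicit false
set_option linter.unusedSectionVars false

namespace Cfsg.Agent.XS

open Cfsg Cfsg.Geo Cfsg.Agent.H98 Cfsg.Agent.H99 Matrix
open Cfsg.Agent.N9 (pm dg On pm_apply dg_apply coe_dg pm_dg conj_pm mul_pm_apply pm_mul_apply dg_const)

/-- The index set. -/
abbrev I := ZMod 7

instance fact7 : Fact (Nat.Prime 7) := ⟨by norm_num⟩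

variable {F : Type*} [Field F] {ι : Type} [Fintype ι] [DecidableEq ι]

/-- Powers of the root of unity. -/
def ze (ζ : Fˣ) (k : I) : Fˣ := ζ ^ k.val

/-- The field is generated by a primitive seventh root of unity. -/
structure Fe (F : Type*) [Field F] [Fintype F] (p : ℕ) (ζ : Fˣ) : Prop where
  prime : p.Prime
  char : CharP F p
  ord : orderOf ζ = 7
  card : Fintype.card F = p ∨ Fintype.card F = p ^ 3
  gen : ∀ K : Subfield F, (ζ : F) ∈ K → K = ⊤

/-- The same in odd characteristic. -/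
structure Fd (F : Type*) [Field F] [Fintype F] (p : ℕ) (ζ : Fˣ) : Prop extends Fe F p ζ where
  odd : p ≠ 2

/-- The affine map `i ↦ c i + k`. -/
def af (c : Iˣ) (k : I) : Equiv.Perm I := (Units.mulLeft c).trans (Equiv.addRight k)

theorem af_apply (c : Iˣ) (k i : I) : af c k i = c * i + k := rfl

theorem af_inv_apply (c : Iˣ) (k i : I) : (af c k)⁻¹ i = (c⁻¹ : Iˣ) * (i - k) := by
  rw [Equiv.Perm.inv_eq_iff_eq, af_apply, Units.mul_inv_cancel_left, sub_add_cancel]

/-- The affine group is doubly transitive. -/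
theorem exists_af {a b a' b' : I} (h : a ≠ b) (h' : a' ≠ b') : ∃ c k, af c k a = a' ∧ af c k b = b' := by
  have h1 := sub_ne_zero.2 h
  refine ⟨Units.mk0 ((a' - b') / (a - b)) (div_ne_zero (sub_ne_zero.2 h') h1), a' - (a' - b') / (a - b) * a, ?_, ?_⟩ <;>
    rw [af_apply, Units.val_mk0]
  · ring
  · field_simp; ring

theorem af_neg : af (-1) 0 = Equiv.neg I := Equiv.ext fun i => by simp [af_apply]

/-- The diagonal matrix with entries `ζ ^ e i`. -/
def ad (ζ : Fˣ) (e : ι → I) : GL ι F := dg fun i => ze ζ (e i)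

/-- The clock matrix. -/
def xx (ζ : Fˣ) : GL I F := ad ζ id

/-- The quadratic phase matrix. -/
def aa (ζ : Fˣ) : GL I F := ad ζ fun i => i * i

variable (F) in
/-- The shift matrix. -/
def sh : GL I F := pm F (af 1 1)

variable (F) in
/-- The parity matrix. -/
def jj : GL I F := pm F (Equiv.neg I)

/-- The Fourier matrix. -/
def wM (ζ : Fˣ) : Matrix I I F := of fun i k => (ze ζ (i * k) : F)

/-- The homology with entry `η` at `k`. -/
def hm (k : ι) (η : Fˣ) : GL ι F := dg (Pi.mulSingle k η)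

/-- The extraspecial group times the scalars. -/
def RS (ζ : Fˣ) : Subgroup (GL I F) := Subgroup.closure {xx ζ, sh F} ⊔ scalars I F

/-- Its normaliser. -/
def NN (ζ : Fˣ) : Subgroup (GL I F) := Subgroup.normalizer (RS ζ : Set (GL I F))

/-- `h` is a scalar or a scalar multiple of the parity matrix. -/
def S0 (h : GL I F) : Prop := h ∈ scalars I F ∨ h * jj F ∈ scalars I F

/-- Representatives of the non-zero indices up to sign. -/
def sm (k : Fin 3) : I := ((k.val + 1 : ℕ) : I)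

/-- Representatives of the indices up to sign. -/
def sp (k : Fin 4) : I := ((k.val : ℕ) : I)

/-- The exponents on the odd part. -/
def em (k : Fin 3) : I := sm k * sm k

/-- The exponents on the even part. -/
def ep (k : Fin 4) : I := sp k * sp k

variable (F) in
/-- The basis `e_s - e_(-s)` of the odd part. -/
def Jm : Matrix I (Fin 3) F := of fun i k => (if i = sm k then 1 else 0) - if i = -sm k then 1 else 0

variable (F) in
/-- A left inverse of `Jm`. -/
def Km : Matrix (Fin 3) I F := of fun k i => if i = sm k then 1 else 0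

variable (F) in
/-- The basis `e_0`, `e_s + e_(-s)` of the even part. -/
def Jp : Matrix I (Fin 4) F := of fun i k => if i = sp k ∨ i = -sp k then 1 else 0

variable (F) in
/-- A left inverse of `Jp`. -/
def Kp : Matrix (Fin 4) I F := of fun k i => if i = sp k then 1 else 0

/-- The group induced by `C_G(j)` on the column space of `J`. -/
def Gr (J : Matrix I ι F) (G : Subgroup (GL I F)) : Subgroup (GL ι F) where
  carrier := {γ | ∃ h ∈ G, h * jj F = jj F * h ∧ On J h γ}
  one_mem' := ⟨1, one_mem _, by simp, On.one⟩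
  mul_mem' := by
    rintro _ _ ⟨a, ha, ca, oa⟩ ⟨b, hb, cb, ob⟩
    exact ⟨a * b, mul_mem ha hb, Commute.mul_left ca cb, oa.mul ob⟩
  inv_mem' := by
    rintro _ ⟨a, ha, ca, oa⟩
    exact ⟨a⁻¹, inv_mem ha, Commute.inv_left ca, oa.inv⟩

theorem mem_Gr {J : Matrix I ι F} {G : Subgroup (GL I F)} {γ : GL ι F} :
    γ ∈ Gr J G ↔ ∃ h ∈ G, h * jj F = jj F * h ∧ On J h γ := Iff.rfl

/-- Diagonal elements have scalar seventh powers. -/
def D7 (Γ : Subgroup (GL ι F)) : Prop := ∀ t : ι → Fˣ, dg t ∈ Γ → dg t ^ 7 ∈ scalars ι F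

/-- The properties of `L₂(7)` that are used. -/
structure Gd (X : Type*) [Group X] : Prop where
  aut : ¬ 49 ∣ Nat.card (MulAut X)
  dvd : 14 ∣ Nat.card X
  one : ∀ x y : X, orderOf x = 2 → orderOf y = 2 → IsConj x y

variable [Fintype F]

/-- `G` contains the scalars and generators of the normaliser. -/
structure Ce (p : ℕ) (ζ : Fˣ) (w : GL I F) (G : Subgroup (GL I F)) : Prop extends Fe F p ζ where
  hw : (w : Matrix I I F) = wM ζ
  sc : scalars I F ≤ G
  x : xx ζ ∈ G
  a : aa ζ ∈ G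
  wm : w ∈ G
  am : ∀ c k, pm F (af c k) ∈ G

/-- The same in odd characteristic. -/
structure Cl (p : ℕ) (ζ : Fˣ) (w : GL I F) (G : Subgroup (GL I F)) : Prop extends Fd F p ζ, Ce p ζ w G

/-- The standing hypotheses: determinants are seventh powers and there are no root elements. -/
structure St (p : ℕ) (ζ : Fˣ) (w : GL I F) (G : Subgroup (GL I F)) : Prop extends Cl p ζ w G where
  det : ∀ g ∈ G, ∃ c : F, (g : Matrix I I F).det = c ^ 7
  nr : ∀ (i k : I) (h : i ≠ k) (c : F), et h c ∈ G → c = 0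

/-- A group of small degree containing a regular element of order seven. -/
structure WH (p : ℕ) (ζ : Fˣ) (e : ι → I) (v : GL ι F) (Γ : Subgroup (GL ι F)) : Prop extends Fd F p ζ where
  inj : Function.Injective e
  two : 2 ≤ Fintype.card ι
  six : Fintype.card ι ≤ 4
  sc : scalars ι F ≤ Γ
  a : ad ζ e ∈ Γ
  vm : v ∈ Γ
  ne : ∀ i k, (v : Matrix ι ι F) i k ≠ 0

theorem jj_jj : jj F * jj F = 1 := by rw [jj, ← map_mul, ← map_one (pm F)]; congr 1; ext i; simp

theorem jj_inv : (jj F)⁻¹ = jj F := inv_eq_of_mul_eq_one_left jj_jj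

theorem jj_apply (i k : I) : (jj F : Matrix I I F) i k = if i = -k then 1 else 0 := pm_apply _ _ _

theorem conj_jj (g : GL I F) (i k : I) :
    ((jj F * g * (jj F)⁻¹ : GL I F) : Matrix I I F) i k = (g : Matrix I I F) (-i) (-k) := conj_pm _ _ _ _

theorem comm_jj {g : GL I F} : g * jj F = jj F * g ↔ ∀ i k, (g : Matrix I I F) (-i) (-k) = (g : Matrix I I F) i k := by
  rw [eq_comm, ← mul_inv_eq_iff_eq_mul]
  exact ⟨fun h i k => by rw [← conj_jj, h], fun h => Units.ext (Matrix.ext fun i k => by rw [conj_jj, h])⟩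

theorem jj_notMem : jj F ∉ scalars I F := fun h => by
  obtain ⟨c, hc⟩ := mem_scalars_iff'.1 h
  have := congrArg (fun g : GL I F => (g : Matrix I I F) 1 (-1)) hc
  simp only [jj_apply, neg_neg, if_true, coe_scal, Matrix.smul_apply, one_apply_ne (show (1 : I) ≠ -1 by decide),
    smul_zero] at this
  exact one_ne_zero this

theorem dg_comm (t u : ι → Fˣ) : (dg t : GL ι F) * dg u = dg u * dg t := by rw [← map_mul, mul_comm, map_mul]

theorem dg_injective : Function.Injective (dg : (ι → Fˣ) → GL ι F) := fun t u h => funext fun i => Units.ext (by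
  simpa [dg_apply] using congrArg (fun g : GL ι F => (g : Matrix ι ι F) i i) h)

theorem dg_mem_scalars {t : ι → Fˣ} : (dg t : GL ι F) ∈ scalars ι F ↔ ∀ i k, t i = t k := by
  refine ⟨fun h i k => ?_, fun h => ?_⟩
  · obtain ⟨c, hc⟩ := mem_scalars_iff'.1 h
    rw [← dg_const] at hc
    rw [dg_injective hc]
  · rcases isEmpty_or_nonempty ι with _ | ⟨⟨i⟩⟩
    · rw [Subsingleton.elim t 1, map_one]; exact one_mem _
    · rw [show t = fun _ => t i from funext fun k => h k i, dg_const]; exact scal_mem _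

theorem exists_dg {g : GL ι F} (h : ∀ i k, i ≠ k → (g : Matrix ι ι F) i k = 0) : ∃ t, g = dg t := by
  have e : (g : Matrix ι ι F) = diagonal fun i => (g : Matrix ι ι F) i i := Matrix.ext fun i k => by
    by_cases c : i = k
    · rw [c, diagonal_apply_eq]
    · rw [h i k c, diagonal_apply_ne _ c]
  have hd := g.det_ne_zero
  rw [e, det_diagonal, Finset.prod_ne_zero_iff] at hd
  exact ⟨fun i => Units.mk0 _ (hd i (Finset.mem_univ i)), Units.ext e⟩

theorem dg_mul_apply (t : ι → Fˣ) (g : GL ι F) (i k : ι) :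
    ((dg t * g : GL ι F) : Matrix ι ι F) i k = t i * (g : Matrix ι ι F) i k := by
  rw [Units.val_mul, coe_dg, diagonal_mul]

theorem mul_dg_apply (t : ι → Fˣ) (g : GL ι F) (i k : ι) :
    ((g * dg t : GL ι F) : Matrix ι ι F) i k = (g : Matrix ι ι F) i k * t k := by
  rw [Units.val_mul, coe_dg, mul_diagonal]

theorem dg_pm_apply (t : ι → Fˣ) (π : Equiv.Perm ι) (i k : ι) :
    ((dg t * pm F π : GL ι F) : Matrix ι ι F) i k = if i = π k then (t i : F) else 0 := by
  rw [dg_mul_apply, pm_apply, mul_ite, mul_one, mul_zero]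

theorem pm_hm (π : Equiv.Perm ι) (k : ι) (η : Fˣ) : pm F π * hm k η * (pm F π)⁻¹ = hm (π k) η := by
  rw [hm, pm_dg, hm]
  congr 1
  ext i
  simp only [Pi.mulSingle_apply, Equiv.Perm.inv_eq_iff_eq]

theorem aa_jj (ζ : Fˣ) : aa ζ * jj F = jj F * aa ζ := comm_jj.2 fun i k => by simp [aa, ad, dg_apply]

theorem ze_zero (ζ : Fˣ) : ze ζ 0 = 1 := pow_zero ζ

theorem ze_one (ζ : Fˣ) : ze ζ 1 = ζ := pow_one ζ

namespace Fe

variable {p : ℕ} {ζ : Fˣ} (h : Fe F p ζ)
include h

theorem pow7 : ζ ^ 7 = 1 := h.ord ▸ pow_orderOf_eq_one ζ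

theorem ze_nat (n : ℕ) : ze ζ (n : I) = ζ ^ n := by rw [ze, ZMod.val_natCast, ← pow_eq_pow_mod n h.pow7]

theorem ze_add (a b : I) : ze ζ (a + b) = ze ζ a * ze ζ b := by
  rw [ze, ZMod.val_add, ← pow_eq_pow_mod _ h.pow7, pow_add]; rfl

theorem ze_neg (a : I) : ze ζ (-a) = (ze ζ a)⁻¹ :=
  eq_inv_of_mul_eq_one_left (by rw [← h.ze_add, neg_add_cancel, ze_zero])

theorem ze_sub (a b : I) : ze ζ (a - b) = ze ζ a / ze ζ b := by rw [sub_eq_add_neg, h.ze_add, h.ze_neg, div_eq_mul_inv]

theorem ze_pow (a : I) (n : ℕ) : ze ζ a ^ n = ze ζ (n * a) := by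
  induction n with
  | zero => simp [ze_zero]
  | succ n ih => rw [pow_succ, ih, ← h.ze_add]; congr 1; push_cast; ring

theorem ze_pow7 (a : I) : ze ζ a ^ 7 = 1 := by
  rw [h.ze_pow, show ((7 : ℕ) : I) = 0 from rfl, zero_mul, ze_zero]

theorem ze_inj : Function.Injective (ze ζ) := fun a b e =>
  ZMod.val_injective 7 (pow_injOn_Iio_orderOf (by rw [h.ord]; exact a.val_lt) (by rw [h.ord]; exact b.val_lt) e)

theorem ze_eq_one {a : I} : ze ζ a = 1 ↔ a = 0 := by rw [← ze_zero ζ, h.ze_inj.eq_iff]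

theorem prim : IsPrimitiveRoot (ζ : F) 7 :=
  IsPrimitiveRoot.coe_units_iff.2 (h.ord ▸ IsPrimitiveRoot.orderOf ζ)

theorem exists_ze {c : Fˣ} (hc : c ^ 7 = 1) : ∃ k, c = ze ζ k := by
  obtain ⟨n, -, e⟩ := h.prim.eq_pow_of_pow_eq_one (ξ := (c : F)) (by rw [← Units.val_pow_eq_pow_val, hc, Units.val_one])
  exact ⟨n, Units.ext (by rw [h.ze_nat, Units.val_pow_eq_pow_val, e])⟩

theorem cast_ne {n : ℕ} (hn : ¬ p ∣ n) : (n : F) ≠ 0 := by
  have := h.char
  rwa [Ne, CharP.cast_eq_zero_iff F p]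

theorem seven_ne : (7 : F) ≠ 0 := by
  have := h.prim.neZero'
  exact_mod_cast NeZero.ne ((7 : ℕ) : F)

theorem ne7 : p ≠ 7 := fun c => by
  have := h.char
  exact h.seven_ne (by exact_mod_cast (c ▸ CharP.cast_eq_zero F p : ((7 : ℕ) : F) = 0))

theorem sum_ze (m : I) : ∑ k : I, (ze ζ (k * m) : F) = if m = 0 then 7 else 0 := by
  split_ifs with c
  · simp [c, ze_zero]
  · have e : ∑ k : I, (ze ζ (k * m) : F) = ze ζ m * ∑ k : I, (ze ζ (k * m) : F) := by
      rw [Finset.mul_sum, ← Equiv.sum_comp (Equiv.addRight 1)]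
      exact Finset.sum_congr rfl fun k _ => by
        rw [Equiv.coe_addRight, add_mul, one_mul, h.ze_add, Units.val_mul, mul_comm]
    by_contra n
    exact c (h.ze_eq_one.1 (Units.ext (mul_right_cancel₀ n (by rw [← e, Units.val_one, one_mul]))))

theorem wM_sq : wM ζ * wM ζ = (7 : F) • (jj F : Matrix I I F) := Matrix.ext fun i k => by
  rw [Matrix.smul_apply, jj_apply, smul_eq_mul, mul_ite, mul_one, mul_zero, Matrix.mul_apply]
  refine (Finset.sum_congr rfl fun l _ => ?_).trans ((h.sum_ze (i + k)).trans (if_congr add_eq_zero_iff_eq_neg rfl rfl))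
  rw [wM, of_apply, of_apply, ← Units.val_mul, ← h.ze_add]; congr 2; ring

theorem exists_w : ∃ w : GL I F, (w : Matrix I I F) = wM ζ :=
  ⟨GeneralLinearGroup.mkOfDetNeZero (wM ζ) fun c => by
    have := congrArg det h.wM_sq
    rw [det_mul, c, zero_mul, det_smul] at this
    exact mul_ne_zero (pow_ne_zero _ h.seven_ne) (jj F).det_ne_zero this.symm, rfl⟩

theorem ad_pow7 (e : ι → I) : ad ζ e ^ 7 = 1 := by
  rw [ad, ← map_pow, ← map_one dg]; congr 1; ext i; simp [h.ze_pow7]

theorem x_sh : xx ζ * sh F = scal I ζ * (sh F * xx ζ) := Units.ext (Matrix.ext fun i k => by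
  rw [← dg_const, xx, ad, sh, dg_pm_apply, dg_mul_apply, mul_dg_apply, pm_apply, af_apply]
  split_ifs with c
  · rw [c, id, id, Units.val_one, one_mul, h.ze_add, ze_one, one_mul, Units.val_mul, mul_comm]
  · simp)

theorem dvd_card : 7 ∣ Fintype.card F - 1 := by
  classical
  rw [← h.ord, ← Fintype.card_units]; exact orderOf_dvd_card

end Fe

namespace Fd

variable {p : ℕ} {ζ : Fˣ} (h : Fd F p ζ)
include h

theorem two_ne : (2 : F) ≠ 0 := by
  exact_mod_cast h.cast_ne (n := 2) fun c => h.odd ((Nat.prime_dvd_prime_iff_eq h.prime Nat.prime_two).1 c)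

theorem ze_ne_neg (a : I) : (ze ζ a : F) ≠ -1 := fun c => by
  have e := congrArg Units.val (h.ze_pow7 a)
  rw [Units.val_pow_eq_pow_val, c, Units.val_one] at e
  exact h.two_ne (by linear_combination -e)

theorem eleven_le : 11 ≤ p := by
  have h1 := h.dvd_card
  have h2 := h.prime
  have h3 := h.odd
  have h4 := h.ne7
  by_contra c
  have : p < 11 := by omega
  rcases h.card with e | e <;> rw [e] at h1 <;> interval_cases p <;> first | omega | (norm_num at h2)

theorem cast_ne' {n : ℕ} (hn : n.Prime) (h7 : n < 11) : (n : F) ≠ 0 :=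
  h.cast_ne fun c => by
    have := (Nat.prime_dvd_prime_iff_eq h.prime hn).1 c
    have := h.eleven_le
    omega

end Fd

namespace Ce

variable {p : ℕ} {ζ : Fˣ} {w : GL I F} {G : Subgroup (GL I F)} (h : Ce p ζ w G)
include h

theorem j : jj F ∈ G := by rw [jj, ← af_neg]; exact h.am _ _

theorem s : sh F ∈ G := h.am _ _

theorem ww : w * w = scal I (Units.mk0 7 h.seven_ne) * jj F :=
  Units.ext (by rw [Units.val_mul, Units.val_mul, h.hw, h.wM_sq, coe_scal, smul_mul_assoc, one_mul, Units.val_mk0])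

theorem w_jj : w * jj F = jj F * w := comm_jj.2 fun i k => by simp [h.hw, wM]

theorem hm_mem {k : I} {η : Fˣ} (hk : hm k η ∈ G) (l : I) : hm l η ∈ G := by
  have := mul_mem (mul_mem (h.am 1 (l - k)) hk) (inv_mem (h.am 1 (l - k)))
  rwa [pm_hm, af_apply, Units.val_one, one_mul, add_sub_cancel] at this

theorem mono {G' : Subgroup (GL I F)} (hG : G ≤ G') : Ce p ζ w G' :=
  ⟨h.toFe, h.hw, h.sc.trans hG, hG h.x, hG h.a, hG h.wm, fun c k => hG (h.am c k)⟩

theorem cl (h2 : p ≠ 2) : Cl p ζ w G := ⟨⟨h.toFe, h2⟩, h.hw, h.sc, h.x, h.a, h.wm, h.am⟩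

end Ce

end Cfsg.Agent.XS
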