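import Cfsg.Agent.XS.N0
import Cfsg.Agent.H98.Frame
import Cfsg.Agent.H98.ExtraCard
import Cfsg.Agent.H98.Extra

set_option autoImplicit false
set_option linter.unusedSectionVars false

namespace Cfsg.Agent.XS

open Cfsg Cfsg.Geo Cfsg.Agent.H98 Cfsg.Agent.H99 Matrix
open Cfsg.Agent.N9 (pm dg On pm_apply dg_apply coe_dg pm_dg conj_pm mul_pm_apply pm_mul_apply dg_const)

variable {F : Type*} [Field F] [Fintype F] {ι : Type} [Fintype ι] [DecidableEq ι] {p : ℕ} {ζ : Fˣ}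
  {w g : GL I F} {G : Subgroup (GL I F)} {e : ι → I} {v : GL ι F} {Γ K Q P : Subgroup (GL ι F)}

theorem frm_pow {x y : GL ι F} {c : Fˣ} (h : x * y = scal ι c * (y * x)) (n : ℕ) :
    x * y ^ n = scal ι (c ^ n) * (y ^ n * x) := by
  induction n with
  | zero => simp [scal_one]
  | succ n ih =>
    rw [pow_succ, ← mul_assoc, ih, mul_assoc, mul_assoc, h, pow_succ, scal_mul, ← mul_assoc (y ^ n), ← scal_comm]
    simp only [mul_assoc]

theorem frm_c11 [Nonempty ι] {r s : GL ι F} {c : Fˣ} (hr : r ^ 7 = 1) (hs : s ^ 7 = 1) (h : s = scal ι c * r) :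
    c ^ 7 = 1 := by
  rw [h, (show Commute (scal ι c) r from scal_comm c r).mul_pow, hr, mul_one] at hs
  exact scal_injective (ι := ι) (by rw [scal_one, ← hs]; exact map_pow _ _ _)

theorem Fe.frm_fix (h : Fe F p ζ) {x y : GL I F} (x11 : x ^ 7 = 1) (xy : x * y = scal I ζ * (y * x)) :
    ∃ v : I → F, v ≠ 0 ∧ (x : Matrix I I F) *ᵥ v = v := by
  have h1 := congrArg (detMonoidHom.comp (Polynomial.aeval (x : Matrix I I F)).toMonoidHom)
    (X_pow_sub_C_eq_prod h.prim (by norm_num) (one_pow 7))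
  rw [map_prod] at h1
  have h2 : (x : Matrix I I F) ^ 7 = 1 := congrArg Units.val x11
  obtain ⟨i, hi, h3⟩ := Finset.prod_eq_zero_iff.1 (h1.symm.trans (by simp [h2]))
  obtain ⟨u, u0, hu⟩ := exists_mulVec_eq_zero_iff.2
    (show ((x : Matrix I I F) - (ζ : F) ^ i • (1 : Matrix I I F)).det = 0 by
      simpa [Algebra.algebraMap_eq_smul_one, _root_.smul_pow] using h3)
  rw [sub_mulVec, smul_mulVec, one_mulVec, sub_eq_zero] at hu
  refine ⟨((y ^ (7 - i) : GL I F) : Matrix I I F) *ᵥ u, fun e => u0 ((gl_mulVec_eq_zero _).1 e), ?_⟩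
  rw [mulVec_mulVec, ← Units.val_mul, frm_pow xy, Units.val_mul, Units.val_mul, coe_scal, smul_mul_assoc, one_mul,
    smul_mulVec, ← mulVec_mulVec, hu, mulVec_smul, smul_smul, Units.val_pow_eq_pow_val, ← pow_add,
    Nat.sub_add_cancel (Finset.mem_range.1 hi).le, h.prim.pow_eq_one, one_smul]

theorem Fe.frm_ex (h : Fe F p ζ) {x y : GL I F} (x11 : x ^ 7 = 1) (y11 : y ^ 7 = 1)
    (xy : x * y = scal I ζ * (y * x)) : ∃ P : GL I F, P * xx ζ * P⁻¹ = x ∧ P * sh F * P⁻¹ = y := by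
  obtain ⟨v, v0, hv⟩ := h.frm_fix x11 xy
  let u : I → I → F := fun j => ((y ^ j.val : GL I F) : Matrix I I F) *ᵥ v
  have hu : ∀ j, (x : Matrix I I F) *ᵥ u j = (ze ζ j : F) • u j := fun j => by
    simp only [u]
    rw [mulVec_mulVec, ← Units.val_mul, frm_pow xy, Units.val_mul, Units.val_mul, coe_scal, smul_mul_assoc, one_mul,
      smul_mulVec, ← mulVec_mulVec, hv, ze]
  have hi : LinearIndependent F u := Module.End.eigenvectors_linearIndependent'
    (toLin' (x : Matrix I I F)) _ (fun a b e => h.ze_inj (Units.ext e)) u fun j =>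
      ⟨Module.End.mem_eigenspace_iff.2 (hu j), fun e => v0 ((gl_mulVec_eq_zero _).1 e)⟩
  obtain ⟨P, hP⟩ : IsUnit (of u)ᵀ := linearIndependent_cols_iff_isUnit.1 hi
  have k : ∀ (A : GL I F) i j, ((A * P : GL I F) : Matrix I I F) i j = ((A : Matrix I I F) *ᵥ u j) i :=
    fun A i j => by rw [Units.val_mul, hP]; rfl
  refine ⟨P, mul_inv_eq_iff_eq_mul.2 (Units.ext ?_), mul_inv_eq_iff_eq_mul.2 (Units.ext ?_)⟩
  · ext i j
    rw [k, hu, xx, ad, mul_dg_apply, hP, mul_comm]; rfl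
  · ext i j
    rw [k, Units.val_mul, sh, mul_pm_apply, hP, af_apply, Units.val_one, one_mul]
    simp only [u]
    rw [mulVec_mulVec, ← Units.val_mul, ← pow_succ', pow_eq_pow_mod _ y11, transpose_apply, of_apply, ZMod.val_add]
    rfl

theorem Fe.frm_norm (h : Fe F p ζ) {R : Subgroup (GL I F)} (hx : xx ζ ∈ R) (hs : sh F ∈ R) (h7 : ∀ r ∈ R, r ^ 7 = 1)
    (hc : ∀ x ∈ R, ∀ y ∈ R, x * y * x⁻¹ * y⁻¹ ∈ scalars I F) : Subgroup.normalizer (R : Set (GL I F)) = NN ζ := by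
  have le : R ≤ RS ζ := fun r hr => h.mem_RS_of_comm (hc r hr _ hx) (hc r hr _ hs)
  have hz : scal I ζ ∈ R := by
    have := mul_mem (mul_mem hx hs) (inv_mem (mul_mem hs hx))
    rwa [h.x_sh, mul_inv_cancel_right] at this
  refine le_antisymm (fun y hy => mem_NN (le ((Subgroup.mem_normalizer_iff.1 hy _).1 hx))
    (le ((Subgroup.mem_normalizer_iff.1 hy _).1 hs))) fun y hy => Subgroup.mem_normalizer_fintype fun r hr => ?_
  obtain ⟨c, m, n, e⟩ := h.mem_RS.1 ((Subgroup.mem_normalizer_iff.1 hy _).1 (le hr))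
  have hr' := mul_mem (pow_mem hx m) (pow_mem hs n)
  obtain ⟨k, rfl⟩ := h.exists_ze (frm_c11 (h7 _ hr') (by rw [conj_pow, h7 r hr, mul_one, mul_inv_cancel]) e)
  rw [SetLike.mem_coe, e, ze, show scal I (ζ ^ k.val) = scal I ζ ^ k.val from map_pow _ _ _]
  exact mul_mem (pow_mem hz _) hr'

theorem Fe.frame (h : Fe F p ζ) {R : Subgroup (GL (Fin 7) F)} (hR : IsLinearSymplecticTypeData 7 R) (ε : Fin 7 ≃ I) :
    ∃ B : GL (Fin 7) F, ∀ y, frmG ε B y ∈ subgroupNormalizer R ↔ y ∈ NN ζ := by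
  have hz : Nat.card (Subgroup.center R) = 7 := by
    obtain ⟨_, _, -, -, k | k | k⟩ := hR.field
    exacts [k.2.2.1, absurd k.1 (by norm_num), absurd k.1 (by norm_num)]
  have hc := (card_sq_mul_card_center hR.symplecticType hR.absIrred hz).2
  have h7 : ∀ r ∈ R, r ^ 7 = 1 := fun r hr => by
    have := Monoid.pow_exponent_eq_one (⟨r, hr⟩ : R)
    rw [hR.symplecticType.exponent_eq] at this
    exact congrArg Subtype.val this
  obtain ⟨x, hx, y, hy, hxy⟩ := exists_noncomm_of_span (by simp) (grpAlg_eq_top_of_absIrr hR.absIrred)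
  obtain ⟨c, e⟩ := mem_scalars_iff'.1 (hc x hx y hy)
  have e1 : x * y * x⁻¹ = scal _ c * y := by rw [← e]; group
  obtain ⟨m, rfl⟩ := h.exists_ze (frm_c11 (h7 y hy) (by rw [conj_pow, h7 y hy, mul_one, mul_inv_cancel]) e1)
  have e2 : x * y = scal _ (ze ζ m) * (y * x) := by rw [← mul_assoc, ← e1]; group
  have m0 : m ≠ 0 := fun k => hxy (by rw [e2, k, ze_zero, scal_one, one_mul])
  have e3 := frm_pow e2 m⁻¹.val
  rw [h.ze_pow, ZMod.natCast_zmod_val, inv_mul_cancel₀ m0, ze_one] at e3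
  have hy' := pow_mem hy m⁻¹.val
  generalize y ^ m⁻¹.val = y' at e3 hy'
  let f := frmG (F := F) ε 1
  have f1 : ∀ r ∈ R, f.symm r ^ 7 = 1 := fun r hr => by rw [← map_pow, h7 r hr, map_one]
  obtain ⟨P, p1, p2⟩ := h.frm_ex (f1 x hx) (f1 y' hy') (f.injective (by
    simp only [map_mul, MulEquiv.apply_symm_apply, f, frmG_scal, e3]))
  have k : ∀ a, frmG ε (f P) a = f (P * a * P⁻¹) := fun a => by
    simp [f, frmG]
  refine ⟨f P, fun a => ?_⟩
  rw [← h.frm_norm (R := R.comap (frmG ε (f P)).toMonoidHom) ?_ ?_ (fun r hr => ?_) fun r hr s hs => ?_,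
    ← Subgroup.comap_normalizer_eq_of_surjective _ (frmG ε (f P)).surjective]
  · rfl
  · change frmG ε (f P) _ ∈ R
    rwa [k, p1, f.apply_symm_apply]
  · change frmG ε (f P) _ ∈ R
    rwa [k, p2, f.apply_symm_apply]
  · exact (frmG ε (f P)).injective (by rw [map_pow, map_one]; exact h7 _ hr)
  · obtain ⟨d, hd⟩ := mem_scalars_iff'.1 (hc _ hr _ hs)
    refine mem_scalars_iff'.2 ⟨d, (frmG ε (f P)).injective ?_⟩
    rw [frmG_scal, map_mul, map_mul, map_mul, map_inv, map_inv]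
    exact hd

end Cfsg.Agent.XS
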