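import Cfsg.Agent.XS.Defs

/-! The clock and shift group, its normaliser, determinants. -/

set_option autoImplicit false
set_option linter.unusedSectionVars false

namespace Cfsg.Agent.XS

open Cfsg Cfsg.Geo Cfsg.Agent.H98 Cfsg.Agent.H99 Matrix
open Cfsg.Agent.N9 (pm dg On pm_apply dg_apply coe_dg pm_dg conj_pm mul_pm_apply pm_mul_apply dg_const)

variable {F : Type*} [Field F] [Fintype F] {ι : Type} [Fintype ι] [DecidableEq ι] {p : ℕ} {ζ : Fˣ}
  {w g : GL I F} {G : Subgroup (GL I F)} {e : ι → I} {v : GL ι F} {Γ K Q P : Subgroup (GL ι F)}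

namespace N0

theorem sh_pow (n : ℕ) : sh F ^ n = pm F (af 1 n) := by
  rw [sh, ← map_pow]
  congr 1
  induction n with
  | zero => ext i; simp [af_apply]
  | succ n ih => rw [pow_succ, ih]; ext i; simp only [Equiv.Perm.mul_apply, af_apply, Units.val_one]; push_cast; ring

theorem pm_one (k : I) : pm F (af 1 k) = sh F ^ k.val := by rw [sh_pow, ZMod.natCast_zmod_val]

theorem x_pow (h : Fe F p ζ) (m : ℕ) : xx ζ ^ m = ad ζ fun i : I => m * i := by
  rw [xx, ad, ad, ← map_pow]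
  congr 1
  funext i
  exact h.ze_pow i m

theorem ad_lin (h : Fe F p ζ) (m b : I) : (ad ζ fun i : I => m * i + b) = scal I (ze ζ b) * xx ζ ^ m.val := by
  rw [x_pow h, ZMod.natCast_zmod_val, ← dg_const, ad, ad, ← map_mul]
  congr 1
  funext i
  rw [h.ze_add, Pi.mul_apply, mul_comm]

theorem pm_x (h : Fe F p ζ) (c : Iˣ) (k : I) (m : ℕ) : pm F (af c k) * xx ζ ^ m * (pm F (af c k))⁻¹ =
    scal I (ze ζ (-(m * (c⁻¹ : Iˣ) * k))) * xx ζ ^ ((m : I) * (c⁻¹ : Iˣ)).val := by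
  rw [← ad_lin h, x_pow h, ad, pm_dg, ad]
  congr 1
  funext i
  rw [af_inv_apply]
  congr 1
  ring

theorem x_mem : xx ζ ∈ RS ζ := Subgroup.mem_sup_left (Subgroup.subset_closure (by simp))

theorem s_mem : sh F ∈ RS ζ := Subgroup.mem_sup_left (Subgroup.subset_closure (by simp))

theorem c_mem (c : Fˣ) : scal I c ∈ RS ζ := Subgroup.mem_sup_right (scal_mem c)

theorem lin_mem (h : Fe F p ζ) (m b : I) : (ad ζ fun i : I => m * i + b) ∈ RS ζ := by
  rw [ad_lin h]
  exact mul_mem (c_mem _) (pow_mem x_mem _)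

theorem RS_le {H : Subgroup (GL I F)} (h1 : xx ζ ∈ H) (h2 : sh F ∈ H) (h3 : ∀ c, scal I c ∈ H) : RS ζ ≤ H :=
  sup_le ((Subgroup.closure_le _).2 (by rintro _ (rfl | rfl) <;> assumption)) fun z hz => by
    obtain ⟨c, rfl⟩ := mem_scalars_iff'.1 hz
    exact h3 c

theorem ze_sum (h : Fe F p ζ) (e : ι → I) (s : Finset ι) : ∏ i ∈ s, ze ζ (e i) = ze ζ (∑ i ∈ s, e i) := by
  induction s using Finset.induction_on with
  | empty => simp [ze_zero]
  | insert a s ha ih => rw [Finset.prod_insert ha, Finset.sum_insert ha, h.ze_add, ih]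

theorem det_ad (h : Fe F p ζ) (e : ι → I) : (ad ζ e : Matrix ι ι F).det = ze ζ (∑ i, e i) := by
  rw [ad, coe_dg, det_diagonal, ← ze_sum h, Units.coe_prod]

theorem det_pm (σ : Equiv.Perm ι) : ∃ c : Fˣ, ((pm F σ : GL ι F) : Matrix ι ι F).det = c ^ 7 := by
  have e : ((pm F σ : GL ι F) : Matrix ι ι F).det = ((Equiv.Perm.sign σ⁻¹ : ℤ) : F) := det_permutation _
  rcases Int.units_eq_one_or (Equiv.Perm.sign σ⁻¹) with h | h <;> rw [e, h]
  · exact ⟨1, by simp⟩
  · exact ⟨-1, by simp; norm_num⟩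

end N0

open N0

theorem Fe.mem_RS (h : Fe F p ζ) : g ∈ RS ζ ↔ ∃ (c : Fˣ) (m n : ℕ), g = scal I c * (xx ζ ^ m * sh F ^ n) := by
  refine ⟨fun hg => ?_, ?_⟩
  · let M : Submonoid (GL I F) :=
      { carrier := {g | ∃ (c : Fˣ) (m n : ℕ), g = scal I c * (xx ζ ^ m * sh F ^ n)}
        one_mem' := ⟨1, 0, 0, by simp [scal_one]⟩
        mul_mem' := by
          rintro _ _ ⟨c, m, n, rfl⟩ ⟨c', m', n', rfl⟩
          obtain ⟨d, k, e⟩ : ∃ d k, sh F ^ n * xx ζ ^ m' = scal I d * xx ζ ^ k * sh F ^ n :=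
            ⟨_, _, by rw [sh_pow]; exact mul_inv_eq_iff_eq_mul.1 (pm_x h 1 n m')⟩
          refine ⟨c * c' * d, m + k, n + n', ?_⟩
          rw [scal_mul, scal_mul, pow_add, pow_add]
          calc _ = scal I c * ((xx ζ ^ m * sh F ^ n) * scal I c') * (xx ζ ^ m' * sh F ^ n') := by group
            _ = scal I c * scal I c' * xx ζ ^ m * (sh F ^ n * xx ζ ^ m') * sh F ^ n' := by
              rw [← scal_comm c']; simp only [mul_assoc]
            _ = scal I c * scal I c' * (xx ζ ^ m * scal I d) * xx ζ ^ k * sh F ^ n * sh F ^ n' := by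
              rw [e]; simp only [mul_assoc]
            _ = _ := by rw [← scal_comm d]; simp only [mul_assoc] }
    let H : Subgroup (GL I F) := { M with
      inv_mem' := fun {a} ha => Submonoid.powers_le.2 ha
        (mem_powers_iff_mem_zpowers.2 (inv_mem (Subgroup.mem_zpowers a))) }
    exact RS_le (H := H) ⟨1, 1, 0, by simp [scal_one]⟩ ⟨1, 0, 1, by simp [scal_one]⟩
      (fun c => ⟨c, 0, 0, by simp⟩) hg
  · rintro ⟨c, m, n, rfl⟩
    exact mul_mem (c_mem c) (mul_mem (pow_mem x_mem m) (pow_mem s_mem n))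

theorem Fe.mem_RS_of_comm (h : Fe F p ζ) (c1 : g * xx ζ * g⁻¹ * (xx ζ)⁻¹ ∈ scalars I F)
    (c2 : g * sh F * g⁻¹ * (sh F)⁻¹ ∈ scalars I F) : g ∈ RS ζ := by
  obtain ⟨α, c1⟩ := mem_scalars_iff'.1 c1
  obtain ⟨β, c2⟩ := mem_scalars_iff'.1 c2
  rw [mul_inv_eq_iff_eq_mul] at c1 c2
  obtain ⟨n, rfl⟩ := h.exists_ze (c := α) (scal_injective (ι := I) (by
    have e : (g * xx ζ * g⁻¹) ^ 7 = (scal I α * xx ζ) ^ 7 := by rw [c1]
    rw [conj_pow, (show Commute (scal I α) (xx ζ) from scal_comm _ _).mul_pow, xx, h.ad_pow7, mul_one, mul_one,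
      mul_inv_cancel] at e
    rw [scal_pow, scal_one, ← e]))
  rw [mul_inv_eq_iff_eq_mul] at c1
  obtain ⟨t, ht⟩ := exists_dg (g := g * pm F (af 1 n)) fun i k hik => by
    have e := congrArg (fun g : GL I F => (g : Matrix I I F) i (k + n)) c1
    simp only [mul_assoc, ← dg_const, xx, ad, dg_mul_apply, mul_dg_apply, id] at e
    rw [Units.val_mul, mul_pm_apply, af_apply, Units.val_one, one_mul]
    by_contra e0
    rw [← mul_assoc, mul_comm, ← Units.val_mul, ← h.ze_add] at e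
    exact hik (add_left_cancel ((h.ze_inj (Units.ext (mul_right_cancel₀ e0 e))).symm.trans (add_comm k n)))
  have c3 : dg t * sh F = scal I β * (sh F * dg t) := by
    have e : Commute (pm F (af 1 n)) (sh F) := by rw [pm_one]; exact (Commute.refl _).pow_left _
    rw [← ht, mul_assoc g, e.eq, ← mul_assoc, ← mul_assoc, ← mul_assoc, ← c2, inv_mul_cancel_right]
  have c4 : ∀ i, t (i + 1) = β * t i := fun i => by
    have e := congrArg (fun g : GL I F => (g : Matrix I I F) (i + 1) i) c3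
    simp only [← dg_const, sh, dg_mul_apply, mul_dg_apply, pm_apply, af_apply, Units.val_one, one_mul, if_true,
      mul_one] at e
    exact Units.ext e
  have c5 : ∀ k : ℕ, t k = β ^ k * t 0 := fun k => by
    induction k with
    | zero => simp
    | succ k ih => rw [Nat.cast_succ, c4, ih, pow_succ', mul_assoc]
  obtain ⟨m, rfl⟩ := h.exists_ze (c := β) (left_eq_mul.1 ((c5 7).trans (mul_comm _ _)))
  have c6 : dg t = scal I (t 0) * ad ζ fun i : I => m * i + 0 := by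
    rw [← dg_const, ad, ← map_mul]
    congr 1
    funext i
    rw [Pi.mul_apply, ← ZMod.natCast_zmod_val i, c5, h.ze_pow, add_zero, mul_comm, mul_comm m]
  rw [eq_mul_inv_of_mul_eq ht, c6, pm_one]
  exact mul_mem (mul_mem (c_mem _) (lin_mem h _ _)) (inv_mem (pow_mem s_mem _))

theorem mem_NN (c1 : g * xx ζ * g⁻¹ ∈ RS ζ) (c2 : g * sh F * g⁻¹ ∈ RS ζ) : g ∈ NN ζ := by
  refine Subgroup.mem_normalizer_fintype fun n hn =>
    RS_le (H := (RS ζ).comap (MulAut.conj g).toMonoidHom) c1 c2 (fun c => ?_) hn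
  change g * scal I c * g⁻¹ ∈ RS ζ
  rw [← scal_comm, mul_inv_cancel_right]
  exact c_mem c

theorem sh_pow7 : sh F ^ 7 = 1 := by
  rw [sh_pow, ← map_one (pm F)]
  congr 1
  ext i
  rw [af_apply, show ((7 : ℕ) : I) = 0 from rfl]
  simp

theorem Fe.j_x (h : Fe F p ζ) : jj F * xx ζ * (jj F)⁻¹ = (xx ζ)⁻¹ := by
  rw [jj, xx, ad, pm_dg, ← map_inv]
  congr 1
  funext i
  exact h.ze_neg i

theorem j_sh : jj F * sh F * (jj F)⁻¹ = (sh F)⁻¹ := by
  rw [jj, sh, ← map_inv, ← map_inv, ← map_mul, ← map_mul]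
  congr 1
  ext i
  rw [af_inv_apply]
  change -(af 1 1 (-i)) = _
  rw [af_apply]
  simp [sub_eq_add_neg, add_comm]

theorem Fe.ce_NN (h : Fe F p ζ) (hw : (w : Matrix I I F) = wM ζ) : Ce p ζ w (NN ζ) := by
  have le : RS ζ ≤ NN ζ := Subgroup.le_normalizer
  refine ⟨h, hw, le_sup_right.trans le, le x_mem, mem_NN ?_ ?_, mem_NN ?_ ?_, fun c k => mem_NN ?_ ?_⟩
  · rw [aa, xx, ad, ad, dg_comm, mul_inv_cancel_right]
    exact x_mem
  · have e : aa ζ * (sh F * aa ζ * (sh F)⁻¹)⁻¹ = ad ζ fun i : I => 2 * i + -1 := by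
      rw [aa, ad, sh, pm_dg, ← map_inv, ← map_mul, ad]
      congr 1
      funext i
      rw [Pi.mul_apply, Pi.inv_apply, af_inv_apply, ← h.ze_neg, ← h.ze_add, inv_one, Units.val_one]
      congr 1
      ring
    have e1 : aa ζ * sh F * (aa ζ)⁻¹ = aa ζ * (sh F * aa ζ * (sh F)⁻¹)⁻¹ * sh F := by group
    rw [e1, e]
    exact mul_mem (lin_mem h _ _) s_mem
  · have e : w * xx ζ = (sh F)⁻¹ * w := Units.ext (Matrix.ext fun i k => by
      rw [xx, ad, mul_dg_apply, sh, ← map_inv, Units.val_mul, pm_mul_apply, inv_inv, af_apply, hw, wM, of_apply,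
        of_apply, ← Units.val_mul, ← h.ze_add, Units.val_one, id]
      congr 2
      ring)
    rw [e, mul_inv_cancel_right]
    exact inv_mem s_mem
  · have e : w * sh F = xx ζ * w := Units.ext (Matrix.ext fun i k => by
      rw [xx, ad, dg_mul_apply, sh, Units.val_mul, mul_pm_apply, af_apply, hw, wM, of_apply,
        of_apply, ← Units.val_mul, ← h.ze_add, Units.val_one, id]
      congr 2
      ring)
    rw [e, mul_inv_cancel_right]
    exact x_mem
  · have e := pm_x h c k 1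
    rw [pow_one] at e
    rw [e]
    exact mul_mem (c_mem _) (pow_mem x_mem _)
  · have e : pm F (af c k) * sh F * (pm F (af c k))⁻¹ = pm F (af 1 c) := by
      rw [sh, mul_inv_eq_iff_eq_mul, ← map_mul, ← map_mul]
      congr 1
      ext i
      simp only [Equiv.Perm.mul_apply, af_apply, Units.val_one]
      ring
    rw [e, pm_one]
    exact pow_mem s_mem _

theorem Fe.dets (h : Fe F p ζ) (hw : (w : Matrix I I F) = wM ζ) :
    (∃ c : Fˣ, (xx ζ : Matrix I I F).det = c ^ 7) ∧ (∃ c : Fˣ, (aa ζ : Matrix I I F).det = c ^ 7) ∧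
      (∃ c : Fˣ, (w : Matrix I I F).det = c ^ 7) ∧
      ∀ a k, ∃ c : Fˣ, ((pm F (af a k) : GL I F) : Matrix I I F).det = c ^ 7 := by
  refine ⟨⟨1, ?_⟩, ⟨1, ?_⟩, ?_, fun a k => det_pm _⟩
  · rw [xx, det_ad h, show ∑ i : I, id i = 0 by decide +kernel, ze_zero]; simp
  · rw [aa, det_ad h, show ∑ i : I, i * i = 0 by decide +kernel, ze_zero]; simp
  · obtain ⟨d, hd⟩ := det_pm (F := F) (Equiv.neg I)
    have e := congrArg det h.wM_sq
    rw [det_mul, det_smul, jj, hd, ← hw, ZMod.card, ← mul_pow] at e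
    have e0 := w.det_ne_zero
    refine ⟨Units.mk0 ((7 * d) ^ 4 / (w : Matrix I I F).det)
      (div_ne_zero (pow_ne_zero _ (mul_ne_zero h.seven_ne d.ne_zero)) e0), ?_⟩
    rw [Units.val_mk0, div_pow, ← pow_mul, mul_comm 4, pow_mul, ← e]
    field_simp

end Cfsg.Agent.XS
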