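import Cfsg.Agent.XS.HHB
import Cfsg.Agent.G5.A
import Cfsg.Agent.S0564
import Cfsg.Agent.H1.Product

set_option autoImplicit false
set_option linter.unusedSectionVars false

namespace Cfsg.Agent.XS

open Cfsg Cfsg.Geo Cfsg.Agent.H98 Cfsg.Agent.H99 Matrix
open Cfsg.Agent.N9 (pm dg On pm_apply dg_apply coe_dg pm_dg conj_pm mul_pm_apply pm_mul_apply dg_const)

variable {F : Type*} [Field F] [Fintype F] {ι : Type} [Fintype ι] [DecidableEq ι] {p : ℕ} {ζ : Fˣ}
  {w g : GL I F} {G : Subgroup (GL I F)} {e : ι → I} {v : GL ι F} {Γ K Q P : Subgroup (GL ι F)}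

section
open Subgroup
variable {X : Type*} [Group X] [Finite X]

theorem nrm_fix {q : ℕ} [Fact q.Prime] {C P : Subgroup X} (hC : IsPGroup q C)
    (h : ∀ c ∈ C, ∀ x ∈ P, c * x * c⁻¹ ∈ P) (hp : q ∣ Nat.card P) :
    ∃ s ∈ P, orderOf s = q ∧ ∀ c ∈ C, c * s = s * c := by
  letI := G5.cact h
  have e : Nat.card (MulAction.fixedPoints C P) = Nat.card (P ⊓ centralizer (C : Set X) : Subgroup X) :=
    Nat.card_congr
      { toFun := fun x => ⟨x.1, x.1.2, fun c hc =>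
          mul_inv_eq_iff_eq_mul.1 (congrArg Subtype.val (x.2 ⟨c, hc⟩))⟩
        invFun := fun x => ⟨⟨x, x.2.1⟩, fun c => Subtype.ext (mul_inv_eq_iff_eq_mul.2 (x.2.2 c c.2))⟩
        left_inv := fun _ => rfl
        right_inv := fun _ => rfl }
  obtain ⟨s, hs⟩ := exists_prime_orderOf_dvd_card' q
    (e ▸ ((hC.card_modEq_card_fixedPoints P).dvd_iff dvd_rfl).1 hp)
  exact ⟨s, s.2.1, by rw [orderOf_coe, hs], s.2.2⟩

theorem nrm_lift {q : ℕ} [hq : Fact q.Prime] {Z K : Subgroup X} [Z.Normal] {a : X} (ha : a ^ q = 1)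
    (hn : ∀ y ∈ K, a * y * a⁻¹ ∈ K) (hd : q ∣ Z.relIndex K) :
    ∃ y ∈ K, y ∉ Z ∧ y ^ q ∈ Z ∧ y * a * y⁻¹ * a⁻¹ ∈ Z := by
  let f := QuotientGroup.mk' Z
  have hk : ∀ y, f y = 1 ↔ y ∈ Z := fun y => QuotientGroup.eq_one_iff y
  have h1 : ∀ (n : ℕ), ∀ y ∈ K, a ^ n * y * (a ^ n)⁻¹ ∈ K := fun n => by
    induction n with
    | zero => simp
    | succ n ih =>
      intro y hy
      have := hn _ (ih y hy)
      rwa [show a * (a ^ n * y * (a ^ n)⁻¹) * a⁻¹ = a ^ (n + 1) * y * (a ^ (n + 1))⁻¹ by group] at this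
  have hC : IsPGroup q (zpowers a) := by
    rintro ⟨_, k, rfl⟩
    exact ⟨1, Subtype.ext (by
      show (a ^ k) ^ q ^ 1 = 1
      rw [pow_one, ← _root_.zpow_natCast, ← _root_.zpow_mul, mul_comm, _root_.zpow_mul, _root_.zpow_natCast, ha,
        _root_.one_zpow])⟩
  obtain ⟨_, ⟨y, hy, rfl⟩, ho, hc⟩ := nrm_fix (P := K.map f) (hC.map f) (by
    rintro _ ⟨c, hc, rfl⟩ _ ⟨y, hy, rfl⟩
    obtain ⟨n, rfl⟩ := mem_powers_iff_mem_zpowers.2 hc
    exact ⟨_, h1 n y hy, by simp only [map_mul, map_inv]⟩)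
    (by rwa [← relIndex_ker, QuotientGroup.ker_mk'])
  refine ⟨y, hy, fun c => hq.out.one_lt.ne' (by rw [← ho, (hk y).2 c, orderOf_one]),
    (hk _).1 (by rw [map_pow, ← ho, pow_orderOf_eq_one]), (hk _).1 ?_⟩
  rw [map_mul, map_mul, map_mul, map_inv, map_inv, ← hc _ ⟨a, mem_zpowers a, rfl⟩]
  group

omit [Finite X] in
theorem nrm_lt {Z K : Subgroup X} [Z.Normal] (hs : Group.IsSolvable K) (hZ : Z ≤ K) (hK : ¬ K ≤ Z) :
    ⁅K, K⁆ ⊔ Z < K := by
  let f := QuotientGroup.mk' Z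
  have h0 : ∀ L : Subgroup X, L.map f = ⊥ ↔ L ≤ Z := fun L => by
    rw [Subgroup.map_eq_bot_iff, QuotientGroup.ker_mk']
  have := Group.isSolvable_of_surjective (f.subgroupMap_surjective K)
  have := (nontrivial_iff_ne_bot _).2 (mt (h0 K).1 hK)
  have h1 : ⁅K.map f, K.map f⁆ < K.map f := by
    rw [← (K.map f).range_subtype, MonoidHom.range_eq_map, ← map_commutator, map_subtype_lt_map_subtype]
    exact Group.IsSolvable.commutator_lt_top_of_nontrivial (K.map f)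
  refine lt_of_le_of_ne (sup_le (commutator_le.2 fun x hx y hy =>
    mul_mem (mul_mem (mul_mem hx hy) (inv_mem hx)) (inv_mem hy)) hZ) fun e => h1.ne ?_
  rw [← map_commutator, ← sup_bot_eq (⁅K, K⁆.map f), ← (h0 Z).2 le_rfl, ← Subgroup.map_sup, e]

omit [Finite X] in
theorem nrm_pow {x y z : X} (hz : ∀ g, z * g = g * z) (h : x * y = z * (y * x)) (n : ℕ) :
    x ^ n * y = z ^ n * (y * x ^ n) := by
  induction n with
  | zero => simp
  | succ n ih =>
    rw [pow_succ' x, mul_assoc, ih, ← mul_assoc, ← (Commute.pow_left (hz x) n).eq, mul_assoc,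
      ← mul_assoc x, h, pow_succ z]
    simp only [mul_assoc]

end

theorem WH.not_dvd (h : WH p ζ e v Γ) (hZ : scalars ι F ≤ K) (hn : ∀ y ∈ K, ad ζ e * y * (ad ζ e)⁻¹ ∈ K)
    (hd : ∀ t : ι → Fˣ, dg t ∈ K → dg t ^ 7 ∈ scalars ι F → dg t ∈ scalars ι F) :
    ¬ 7 ∣ (scalars ι F).relIndex K := by
  intro c
  obtain ⟨y, hy, h1, h2, h3⟩ := nrm_lift (h.ad_pow7 e) hn c
  obtain ⟨t, rfl⟩ := h.diag h3
  exact h1 (hd t hy h2)

theorem WH.norm (h : WH p ζ e v Γ) (hZ : scalars ι F ≤ K) (hn : NzG Γ K)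
    (hd : ∀ t : ι → Fˣ, dg t ∈ K → dg t ^ 7 ∈ scalars ι F → dg t ∈ scalars ι F) : K ≤ scalars ι F := by
  have hp := Fact.mk h.prime
  have := h.char
  have : Nonempty ι := Fintype.card_pos_iff.1 (by have := h.two; omega)
  induction K using WellFoundedLT.induction with | ind K ih
  by_contra hK
  obtain ⟨k, hk⟩ := h.idx hZ (hn _ h.a) (h.not_dvd hZ (hn _ h.a) hd)
  have hs : Group.IsSolvable K := by
    obtain ⟨R⟩ : Nonempty (Sylow p K) := inferInstance
    refine S0564.result ((Subgroup.centralizer {ad ζ e}).subgroupOf K) R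
      ⟨1, Subgroup.upperCentralSeries_one_eq_top_iff.2 ⟨⟨fun x y => ?_⟩⟩⟩
      R.isPGroup'.isNilpotent (H1.mul_eq_of_coprime _ _
        (hk.symm ▸ ((Nat.Prime.coprime_iff_not_dvd h.prime).2 R.not_dvd_index).pow_left k :
          ((Subgroup.centralizer {ad ζ e}).relIndex K).Coprime _))
    have hg : ∀ x : (Subgroup.centralizer {ad ζ e}).subgroupOf K, ∃ t, x.1.1 = dg t := fun x => h.diag (by
      rw [← show ad ζ e * x.1.1 = x.1.1 * ad ζ e from Subgroup.mem_centralizer_iff.1 x.2 _ rfl]; simp [one_mem])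
    obtain ⟨t, ht⟩ := hg x
    obtain ⟨u, hu⟩ := hg y
    exact Subtype.ext (Subtype.ext (show x.1.1 * y.1.1 = y.1.1 * x.1.1 by rw [ht, hu, dg_comm]))
  have hlt := nrm_lt hs hZ hK
  have hc : ⁅K, K⁆ ≤ scalars ι F := le_sup_left.trans (ih _ hlt le_sup_right (fun g hg x hx => by
    obtain ⟨y, hy, c, rfl⟩ := mem_sup_scalars.1 hx
    refine mem_sup_scalars.2 ⟨g * y * g⁻¹, ?_, c, by rw [← mul_assoc, ← scal_comm]; simp only [mul_assoc]⟩
    have m : K.map (MulAut.conj g).toMonoidHom ≤ K := by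
      rintro _ ⟨x, hx, rfl⟩
      exact hn g hg x hx
    exact Subgroup.commutator_mono m m ((Subgroup.map_commutator K K _).le (Subgroup.mem_map_of_mem _ hy)))
    fun t ht => hd t (hlt.le ht))
  have cm : ∀ x ∈ K, x ^ p = 1 → ∀ y ∈ K, x * y = y * x := fun x hx h1 y hy => by
    obtain ⟨c, hc⟩ := mem_scalars_iff'.1 (hc (Subgroup.commutator_mem_commutator hx hy))
    have e1 : x * y = H98.scal ι c * (y * x) := by rw [← hc, commutatorElement_def]; group
    have e2 := nrm_pow (scal_comm c) e1 p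
    rw [h1, one_mul, mul_one, right_eq_mul, ← scal_pow, ← scal_one] at e2
    have e3 : (c : F) = 1 := frobenius_inj F p (by
      rw [frobenius_def, map_one, ← Units.val_pow_eq_pow_val, scal_injective e2, Units.val_one])
    rw [e1, Units.val_eq_one.1 e3, scal_one, one_mul]
  let Q : Subgroup (GL ι F) :=
    { carrier := {x | x ∈ K ∧ x ^ p = 1}
      one_mem' := ⟨one_mem _, one_pow _⟩
      mul_mem' := fun {x y} hx hy => ⟨mul_mem hx.1 hy.1, by
        rw [Commute.mul_pow (cm x hx.1 hx.2 y hy.1), hx.2, hy.2, one_mul]⟩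
      inv_mem' := fun {x} hx => ⟨inv_mem hx.1, by rw [inv_pow, hx.2, inv_one]⟩ }
  have hQ : Q = ⊥ := h.pgroup (fun x => ⟨1, Subtype.ext (by simpa using x.2.2)⟩)
    fun g hg x hx => ⟨hn g hg x hx.1, by rw [conj_pow, hx.2, mul_one, mul_inv_cancel]⟩
  have k0 : k = 0 := by
    by_contra k0
    obtain ⟨x, hx⟩ := exists_prime_orderOf_dvd_card' p
      ((dvd_pow_self p k0).trans (hk ▸ Subgroup.relIndex_dvd_card _ K))
    have : x.1 = 1 := Subgroup.mem_bot.1 (hQ.le ⟨x.2, by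
      rw [← hx, ← Subgroup.coe_pow, pow_orderOf_eq_one, Subgroup.coe_one]⟩)
    exact h.prime.one_lt.ne' (by rw [← hx, show x = 1 from Subtype.ext this, orderOf_one])
  rw [k0, pow_zero, Subgroup.relIndex_eq_one] at hk
  exact hK fun y hy => h.scal' (Subgroup.mem_centralizer_iff.1 (hk hy) _ rfl).symm
    (Subgroup.mem_centralizer_iff.1 (hk (by simpa using hn _ (inv_mem h.vm) y hy)) _ rfl).symm

end Cfsg.Agent.XS
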