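import Cfsg.Agent.XS.Core3
import Cfsg.Agent.G5.A
import Cfsg.Agent.H49.Prod

set_option autoImplicit false
set_option linter.unusedSectionVars false

namespace Cfsg.Agent.XS

open Cfsg Cfsg.Geo Cfsg.Agent.H98 Cfsg.Agent.H99 Matrix
open Cfsg.Agent.N9 (pm dg On pm_apply dg_apply coe_dg pm_dg conj_pm mul_pm_apply pm_mul_apply dg_const)

variable {F : Type*} [Field F] [Fintype F] {ι : Type} [Fintype ι] [DecidableEq ι] {p : ℕ} {ζ : Fˣ}
  {w g : GL I F} {G : Subgroup (GL I F)} {e : ι → I} {v : GL ι F} {Γ K Q P : Subgroup (GL ι F)}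

open Subgroup in
/-- Frattini argument with a Sylow subgroup of order seven -/
theorem OC.mem {X : Type*} [Group X] [Finite X] {M : Subgroup X} [M.Normal] (h1 : ¬ 49 ∣ Nat.card X)
    (h2 : 7 ∣ Nat.card M) {a : X} (ha : orderOf a = 7)
    (hn : ∀ n : X, n * n = 1 → n * a * n⁻¹ = a ∨ n * a * n⁻¹ = a⁻¹ → n = 1) {x : X} (hx : x * x = 1) :
    x ∈ M := by
  classical
  have hf : (Nat.card X).factorization 7 = 1 := by
    have a1 : 1 ≤ (Nat.card X).factorization 7 :=
      (Nat.Prime.dvd_iff_one_le_factorization (by norm_num) Nat.card_pos.ne').1 (ha ▸ orderOf_dvd_natCard a)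
    have a2 : ¬ 2 ≤ (Nat.card X).factorization 7 := fun c =>
      h1 ((Nat.Prime.pow_dvd_iff_le_factorization (p := 7) (by norm_num) Nat.card_pos.ne').2 c)
    omega
  let S : Sylow 7 X := Sylow.ofCard (zpowers a) (by rw [hf, Nat.card_zpowers, ha, pow_one])
  have hS : (S : Subgroup X) = zpowers a := rfl
  have hSM : (S : Subgroup X) ≤ M := by
    obtain ⟨m, hm⟩ := exists_prime_orderOf_dvd_card' 7 h2
    have hm' : orderOf (m : X) = 7 := by rw [orderOf_coe, hm]
    obtain ⟨T, hT⟩ := (IsPGroup.of_card (p := 7) (n := 1) (G := zpowers (m : X))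
      (by rw [Nat.card_zpowers, hm', pow_one])).exists_le_sylow
    obtain ⟨k, hk⟩ := MulAction.exists_smul_eq X T S
    have e1 : k * m * k⁻¹ ∈ (S : Subgroup X) := by
      rw [← hk]
      exact ⟨m, hT (mem_zpowers _), rfl⟩
    have e2 : zpowers (k * m * k⁻¹) = (S : Subgroup X) := eq_of_le_of_card_ge (zpowers_le.2 e1) (by
      rw [hS, Nat.card_zpowers, Nat.card_zpowers, ha]
      exact (((MulAut.conj k).orderOf_eq (m : X)).trans hm').ge)
    rw [← e2, zpowers_le]
    exact Normal.conj_mem inferInstance _ m.2 k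
  have hsup := Sylow.normalizer_sup_eq_top' S hSM
  have hodd : ¬ 2 ∣ Nat.card (normalizer (S : Set X)) := fun c => by
    obtain ⟨n, ho⟩ := exists_prime_orderOf_dvd_card' 2 c
    have ho' : orderOf (n : X) = 2 := by rw [orderOf_coe, ho]
    have n2 : (n : X) * n = 1 := by rw [← pow_two, ← ho', pow_orderOf_eq_one]
    have e1 : (n : X) * a * (n : X)⁻¹ ∈ zpowers a := (mem_normalizer_iff.1 n.2 a).1 (mem_zpowers a)
    rw [mem_zpowers_iff_mem_range_orderOf, ha] at e1
    obtain ⟨k, hk, e2⟩ := Finset.mem_image.1 e1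
    have e3 : a ^ (k * k) = a ^ 1 := by
      rw [pow_mul, e2, conj_pow, e2, pow_one]
      calc _ = (n : X) * n * a * ((n : X) * n)⁻¹ := by group
        _ = a := by rw [n2]; group
    rw [pow_eq_pow_iff_modEq, ha] at e3
    have e4 : k = 1 ∨ k = 6 :=
      (by decide : ∀ k < 7, k * k ≡ 1 [MOD 7] → k = 1 ∨ k = 6) k (Finset.mem_range.1 hk) e3
    have e5 : (n : X) = 1 := hn n n2 (by
      rcases e4 with rfl | rfl
      · left; rw [← e2, pow_one]
      · right; rw [← e2]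
        apply eq_inv_of_mul_eq_one_left
        rw [← pow_succ]
        exact orderOf_dvd_iff_pow_eq_one.1 (by rw [ha]))
    rw [e5, orderOf_one] at ho'
    omega
  have hi : M.index ∣ Nat.card (normalizer (S : Set X)) := by
    rw [← relIndex_top_right, ← hsup, relIndex_sup_right]
    exact relIndex_dvd_card _ _
  have h3 : orderOf (x : X ⧸ M) ∣ 2 :=
    orderOf_dvd_of_pow_eq_one (by rw [pow_two, ← QuotientGroup.mk_mul, hx, QuotientGroup.mk_one])
  rcases (Nat.dvd_prime Nat.prime_two).1 h3 with c | c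
  · exact (QuotientGroup.eq_one_iff x).1 (orderOf_eq_one_iff.1 c)
  · exact absurd ((c ▸ orderOf_dvd_natCard (x : X ⧸ M)).trans hi) hodd

theorem WH.oc {u x y : GL (Fin 3) F} {Δ L : Subgroup (GL (Fin 3) F)} (h : WH p ζ em u Δ) (hD : D7 Δ) (hc : CoreData Δ L)
    (hg : Gd (L ⧸ (scalars (Fin 3) F).subgroupOf L)) (hx : x ∈ Δ) (hy : y ∈ Δ) (x2 : x * x ∈ scalars (Fin 3) F)
    (y2 : y * y ∈ scalars (Fin 3) F) (x1 : x ∉ scalars (Fin 3) F) (y1 : y ∉ scalars (Fin 3) F) :
    ∃ k ∈ Δ, k * x * k⁻¹ * y⁻¹ ∈ scalars (Fin 3) F := by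
  let π := QuotientGroup.mk' ((scalars (Fin 3) F).subgroupOf Δ)
  have hπ : ∀ d : Δ, π d = 1 ↔ (d : GL (Fin 3) F) ∈ scalars (Fin 3) F := fun d =>
    QuotientGroup.eq_one_iff d
  have hs : Function.Surjective π := QuotientGroup.mk'_surjective _
  let ψ : (L ⧸ (scalars (Fin 3) F).subgroupOf L) →* (Δ ⧸ (scalars (Fin 3) F).subgroupOf Δ) :=
    QuotientGroup.map _ _ (Subgroup.inclusion hc.le) fun _ hl => hl
  have hψ : Function.Injective ψ := (injective_iff_map_eq_one ψ).2 fun q hq => by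
    obtain ⟨l, rfl⟩ := QuotientGroup.mk_surjective q
    exact (QuotientGroup.eq_one_iff l).2 ((hπ (Subgroup.inclusion hc.le l)).1 hq)
  have hN : ψ.range.Normal := ⟨by
    rintro _ ⟨q, rfl⟩ d
    obtain ⟨l, rfl⟩ := QuotientGroup.mk_surjective q
    obtain ⟨d, rfl⟩ := hs d
    exact ⟨QuotientGroup.mk ⟨_, hc.normal d d.2 l l.2⟩, rfl⟩⟩
  have ha : orderOf (π ⟨ad ζ em, h.a⟩) = 7 := orderOf_eq_prime
    (by rw [← map_pow, hπ, Subgroup.coe_pow, h.ad_pow7]; exact one_mem _) fun c => h.a_ne ((hπ _).1 c)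
  have key : ∀ z : Δ, (z : GL (Fin 3) F) * z ∈ scalars (Fin 3) F → (z : GL (Fin 3) F) ∉ scalars (Fin 3) F →
      ∃ q, orderOf q = 2 ∧ ψ q = π z := by
    intro z z2 z1
    have e : π z * π z = 1 := by rw [← map_mul, hπ]; exact z2
    obtain ⟨q, hq⟩ := OC.mem (M := ψ.range) (fun c => hg.aut (c.trans (relIndex_dvd hc)))
      (by
        rw [← Nat.card_congr (MonoidHom.ofInjective hψ).toEquiv]
        exact (show 7 ∣ 14 by norm_num).trans hg.dvd) ha (fun n n2 c => by
        obtain ⟨n, rfl⟩ := hs n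
        rw [← map_mul, hπ] at n2
        rcases c with c | c
        · rw [← mul_inv_eq_one, ← map_inv, ← map_inv, ← map_mul, ← map_mul, ← map_mul, hπ] at c
          obtain ⟨t, ht⟩ := h.diag (y := n) c
          have e1 : π n ^ 7 = 1 := by
            rw [← map_pow, hπ, Subgroup.coe_pow, ht]
            exact hD t (ht ▸ n.2)
          have e2 : π n ^ 2 = 1 := by rw [pow_two, ← map_mul, hπ]; exact n2
          exact orderOf_eq_one_iff.1 (Nat.dvd_one.1
            (Nat.dvd_gcd (orderOf_dvd_of_pow_eq_one e1) (orderOf_dvd_of_pow_eq_one e2)))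
        · rw [← mul_eq_one_iff_eq_inv, ← map_inv, ← map_mul, ← map_mul, ← map_mul, hπ] at c
          exact (h.no_inv (y := n) c).elim) e
    refine ⟨q, ?_, hq⟩
    rw [← orderOf_injective ψ hψ, hq]
    exact orderOf_eq_prime (by rw [pow_two, e]) fun c => z1 ((hπ z).1 c)
  obtain ⟨q, q1, q2⟩ := key ⟨x, hx⟩ x2 x1
  obtain ⟨r, r1, r2⟩ := key ⟨y, hy⟩ y2 y1
  obtain ⟨k, hk⟩ := isConj_iff.1 (ψ.map_isConj (hg.one q r q1 r1))
  obtain ⟨k, rfl⟩ := hs k
  rw [q2, r2, ← mul_inv_eq_one, ← map_inv, ← map_inv, ← map_mul, ← map_mul, ← map_mul, hπ] at hk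
  exact ⟨k, k.2, hk⟩

theorem le_of_odd (hc : CoreData Γ P) (hg : Gd (P ⧸ (scalars ι F).subgroupOf P)) (hZ : scalars ι F ≤ K) (hK : K ≤ Γ)
    (hn : NzG Γ K) (ho : Odd ((scalars ι F).relIndex K)) : K ≤ scalars ι F := by
  have := hc.simple
  have h1 : (K.subgroupOf P).Normal := ⟨fun x hx l => hn l (hc.le l.2) x hx⟩
  rcases (h1.map _ (QuotientGroup.mk'_surjective ((scalars ι F).subgroupOf P))).eq_bot_or_eq_top with c | c
  · rw [Subgroup.map_eq_bot_iff, QuotientGroup.ker_mk'] at c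
    intro k hk
    refine hc.centralizer_scalar k (hK hk) fun x hx => ?_
    refine c (x := ⟨_, mul_mem (hc.normal k (hK hk) x hx) (inv_mem hx)⟩) ?_
    change k * x * k⁻¹ * x⁻¹ ∈ K
    rw [mul_assoc, mul_assoc, ← mul_assoc x]
    exact mul_mem hk (hn x (hc.le hx) _ (inv_mem hk))
  · exfalso
    have h2 : P ≤ K := fun l hl => by
      obtain ⟨k, hk, e⟩ : (QuotientGroup.mk' ((scalars ι F).subgroupOf P)) ⟨l, hl⟩ ∈
        (K.subgroupOf P).map (QuotientGroup.mk' ((scalars ι F).subgroupOf P)) := c ▸ Subgroup.mem_top _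
      have e' : k⁻¹ * ⟨l, hl⟩ ∈ (scalars ι F).subgroupOf P := QuotientGroup.eq.1 e
      have := mul_mem (show (k : GL ι F) ∈ K from hk) (hZ e')
      simpa using this
    have h3 := H49.relIndex_dvd_of_norm (N := scalars ι F) (M := K) (by
      rw [Subgroup.normalizer_eq_top]; exact le_top) h2
    exact absurd (ho.of_dvd_nat (hg.dvd.trans h3)) (by decide)

end Cfsg.Agent.XS
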