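import Cfsg.Agent.XS.Defs

/-! Characteristic two: the unipotent radical of the centraliser of the parity matrix. -/

set_option autoImplicit false
set_option linter.unusedSectionVars false

namespace Cfsg.Agent.XS

open Cfsg Cfsg.Geo Matrix

variable {F : Type*} [Field F]

/-- The index up to sign. -/
def ab (i : I) : Fin 4 := (![0, 1, 2, 3, 3, 2, 1] : Fin 7 → Fin 4) i

/-- The matrix whose entries depend on the indices up to sign. -/
def Nn (n : Matrix (Fin 4) (Fin 4) F) : Matrix I I F := n.submatrix ab ab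

/-- The matrix lies in the group. -/
def In (G : Subgroup (GL I F)) (M : Matrix I I F) : Prop := ∃ g ∈ G, (g : Matrix I I F) = M

theorem Nn_apply (n : Matrix (Fin 4) (Fin 4) F) (i k : I) : Nn n i k = n (ab i) (ab k) := rfl

theorem ab_neg : ∀ i : I, ab (-i) = ab i := by decide

theorem ab_sp : ∀ k, ab (sp k) = k := by decide

theorem sp_ab : ∀ i : I, sp (ab i) = i ∨ sp (ab i) = -i := by decide

theorem In.mul {G : Subgroup (GL I F)} {M N : Matrix I I F} (a : In G M) (b : In G N) : In G (M * N) := by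
  obtain ⟨g, hg, rfl⟩ := a
  obtain ⟨k, hk, rfl⟩ := b
  exact ⟨g * k, mul_mem hg hk, rfl⟩

theorem In.one {G : Subgroup (GL I F)} : In G 1 := ⟨1, one_mem _, rfl⟩

theorem sum_ab (h2 : (2 : F) = 0) (f : Fin 4 → F) : ∑ i : I, f (ab i) = f 0 := by
  change ∑ i : Fin 7, f (ab i) = f 0
  simp only [Fin.sum_univ_seven]
  change f 0 + f 1 + f 2 + f 3 + f 3 + f 2 + f 1 = f 0
  linear_combination (f 1 + f 2 + f 3) * h2

theorem Nn_mul (h2 : (2 : F) = 0) (n m : Matrix (Fin 4) (Fin 4) F) :
    Nn n * Nn m = Nn (of fun k l => n k 0 * m 0 l) :=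
  Matrix.ext fun i k => by rw [Matrix.mul_apply]; exact sum_ab h2 fun l => n (ab i) l * m l (ab k)

end Cfsg.Agent.XS
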