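import Cfsg.Agent.XS.Res
import Cfsg.Agent.XS.QDefs

set_option autoImplicit false
set_option linter.unusedSectionVars false

namespace Cfsg.Agent.XS

open Cfsg Cfsg.Geo Cfsg.Agent.H98 Cfsg.Agent.H99 Matrix
open Cfsg.Agent.N9 (pm dg On pm_apply dg_apply coe_dg pm_dg conj_pm mul_pm_apply pm_mul_apply dg_const)

variable {F : Type*} [Field F] [Fintype F] {ι : Type} [Fintype ι] [DecidableEq ι] {p : ℕ} {ζ : Fˣ}
  {w g : GL I F} {G : Subgroup (GL I F)} {e : ι → I} {v : GL ι F} {Γ K Q P : Subgroup (GL ι F)}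

theorem qred_form (c : g * jj F = jj F * g) (o : On (Jm F) g 1) :
    (g : Matrix I I F) = 1 + Nn (of fun k l => ((g : Matrix I I F) - 1) (sp k) (sp l)) := by
  have c' := comm_jj.1 c
  have d1 : ∀ i k, ((g : Matrix I I F) - 1) (-i) (-k) = ((g : Matrix I I F) - 1) i k := fun i k => by
    simp only [Matrix.sub_apply, c', one_apply, neg_inj]
  have d2 : ∀ a l, ((g : Matrix I I F) - 1) (sm a) (-sm l) =
      ((g : Matrix I I F) - 1) (sm a) (sm l) := fun a l => by
    have e := on_m_apply o a l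
    simp only [Units.val_one, one_apply] at e
    simp only [Matrix.sub_apply, one_apply, Res.sm_inj, if_neg (Res.sm_neg a l)]
    linear_combination e
  have d3 : ∀ a k, ((g : Matrix I I F) - 1) (sm a) (-k) = ((g : Matrix I I F) - 1) (sm a) k :=
    fun a k => by
      rcases Res.sm_all k with rfl | ⟨l, rfl | rfl⟩
      · rw [neg_zero]
      · exact d2 a l
      · rw [neg_neg, d2]
  have d4 : ∀ i k, ((g : Matrix I I F) - 1) i (-k) = ((g : Matrix I I F) - 1) i k := fun i k => by
    rcases Res.sm_all i with rfl | ⟨a, rfl | rfl⟩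
    · rw [← d1 0 k, neg_zero]
    · exact d3 a k
    · rw [d1, ← d3, ← d1 (sm a) (-k), neg_neg]
  have d5 : ∀ i k, ((g : Matrix I I F) - 1) (-i) k = ((g : Matrix I I F) - 1) i k := fun i k => by
    rw [← d4, d1]
  rw [← sub_eq_iff_eq_add']
  ext i k
  rw [Nn_apply, of_apply]
  rcases sp_ab i with e | e <;> rcases sp_ab k with e' | e' <;> rw [e, e']
  · rw [d4]
  · rw [d5]
  · rw [d1]

theorem k0_of (h2 : (2 : F) = 0)
    (q0 : ∀ n : Matrix (Fin 4) (Fin 4) F, (∀ k, n 0 k = 0) → (∀ k, n k 0 = 0) → In G (1 + Nn n) →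
      n = 0 ∨ 1 + Nn n = (jj F : Matrix I I F))
    (qa : ∀ n : Matrix (Fin 4) (Fin 4) F, (∀ k, n k 0 = 0) → In G (1 + Nn n) → ∀ k, n 0 k = 0)
    (qb : ∀ n : Matrix (Fin 4) (Fin 4) F, (∀ k, n 0 k = 0) → In G (1 + Nn n) → ∀ k, n k 0 = 0) :
    ∀ g ∈ G, g * jj F = jj F * g → On (Jm F) g 1 → (g : Matrix I I F) 0 0 = 1 → g = 1 ∨ g = jj F := by
  intro g hg c o h0
  have e := qred_form c o
  set n : Matrix (Fin 4) (Fin 4) F := of fun k l => ((g : Matrix I I F) - 1) (sp k) (sp l) with hn
  have n0 : n 0 0 = 0 := by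
    change (g : Matrix I I F) 0 0 - (1 : Matrix I I F) 0 0 = 0
    rw [h0, one_apply_eq, sub_self]
  have i1 : In G (1 + Nn n) := ⟨g, hg, e⟩
  have i2 : In G (1 + Nn (of fun k l => n k 0 * n 0 l)) := by
    have := i1.mul i1
    rwa [add_mul, one_mul, mul_add, mul_one, Nn_mul h2, add_assoc, ← add_assoc (Nn n),
      ← two_smul F (Nn n), h2, zero_smul, zero_add] at this
  have key : (∀ k, n 0 k = 0) ∧ ∀ k, n k 0 = 0 := by
    rcases q0 _ (fun k => by rw [of_apply, n0, zero_mul]) (fun k => by rw [of_apply, n0, mul_zero])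
      i2 with m | m
    · by_cases a : ∀ k, n k 0 = 0
      · exact ⟨qa n a i1, a⟩
      · push Not at a
        obtain ⟨k, hk⟩ := a
        have b : ∀ l, n 0 l = 0 := fun l =>
          (mul_eq_zero.1 (congrFun (congrFun m k) l)).resolve_left hk
        exact ⟨b, qb n b i1⟩
    · exfalso
      have m11 := congrFun (congrFun m 1) (-1)
      have m22 := congrFun (congrFun m 2) (-2)
      have m12 := congrFun (congrFun m 1) 2
      rw [Matrix.add_apply, Nn_apply, of_apply, jj_apply] at m11 m22 m12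
      rw [one_apply_ne (by decide), zero_add, if_pos (by decide)] at m11 m22
      rw [one_apply_ne (by decide), zero_add, if_neg (by decide)] at m12
      change n 1 0 * n 0 1 = 1 at m11
      change n 2 0 * n 0 2 = 1 at m22
      change n 1 0 * n 0 2 = 0 at m12
      rcases mul_eq_zero.1 m12 with z | z
      · rw [z, zero_mul] at m11
        exact zero_ne_one m11
      · rw [z, mul_zero] at m22
        exact zero_ne_one m22
  rcases q0 n key.1 key.2 i1 with m | m
  · left
    refine Units.ext ?_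
    rw [e, m]
    ext i k
    simp [Nn_apply]
  · exact Or.inr (Units.ext (e.trans m))

end Cfsg.Agent.XS
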