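import Cfsg.Agent.XS.QCert
import Cfsg.Agent.XS.QRed

/-! The field with eight elements: the unipotent radical meets the group in the parity matrix only. -/

set_option autoImplicit false
set_option linter.unusedSectionVars false

namespace Cfsg.Agent.XS

open Cfsg Cfsg.Geo Cfsg.Agent.H98 Cfsg.Agent.H99 Cfsg.Agent.H14 Cfsg.Agent.H56 Matrix
open Cfsg.Agent.N9 (pm dg On pm_apply dg_apply)

variable {F : Type*} [Field F] [Fintype F] {ι : TF F8 →+* F} {p : ℕ} {ζ : Fˣ} {w : GL I F} {G : Subgroup (GL I F)}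

/-- A generator of the units modulo seven. -/
def u3 : Iˣ := ⟨3, 5, by decide, by decide⟩

theorem mt_ite {X : ℕ} {q : I → I → Prop} [∀ i k, Decidable (q i k)] {f : I → I → I} (hζ : (ζ : F) = dec ι 2)
    (H : ∀ i k : I, e8 X i.val k.val = if q i k then fpow 3 8 tT (f i k).val 2 else 0) (i k : I) :
    mt ι X i k = if q i k then (ze ζ (f i k) : F) else 0 := by
  rw [mt_apply, H]
  split_ifs
  · rw [ze, Units.val_pow_eq_pow_val, hζ]; exact dec_fpow ι _ (by decide)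
  · exact dec_zero ι

theorem mt_one {X : ℕ} {q : I → I → Prop} [∀ i k, Decidable (q i k)]
    (H : ∀ i k : I, e8 X i.val k.val = if q i k then 1 else 0) (i k : I) : mt ι X i k = if q i k then 1 else 0 := by
  rw [mt_apply, H, apply_ite (dec ι), dec_one, dec_zero]

theorem mt_cJ : mt ι (a7 idc cJ) = (jj F : Matrix I I F) := Matrix.ext fun i k => by
  rw [jj_apply]; exact mt_one (q := fun i k => i = -k) (by decide +kernel) i k

theorem mt_J : mt ι cJ = (jj F : Matrix I I F) - 1 := by rw [← mt_cJ (ι := ι), mt_a7, mt_id, add_sub_cancel_left]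

theorem Ce.gens (h : Ce p ζ w G) (hζ : (ζ : F) = dec ι 2) : mt ι cx = (xx ζ : GL I F) ∧ mt ι ca = (aa ζ : GL I F) ∧
    mt ι cw = w ∧ mt ι cs = (sh F : GL I F) ∧ mt ι ch = (pm F (af u3 0) : GL I F) := by
  refine ⟨Matrix.ext fun i k => ?_, Matrix.ext fun i k => ?_, Matrix.ext fun i k => ?_, Matrix.ext fun i k => ?_,
    Matrix.ext fun i k => ?_⟩
  · rw [xx, ad, dg_apply]; exact mt_ite (f := fun i _ => i) hζ (by decide +kernel) i k
  · rw [aa, ad, dg_apply]; exact mt_ite (f := fun i _ => i * i) hζ (by decide +kernel) i k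
  · rw [h.hw]; exact (mt_ite (q := fun _ _ => True) (f := fun i k => i * k) hζ (by decide +kernel) i k).trans (if_pos trivial)
  · rw [sh, pm_apply]; exact mt_one (q := fun i k => i = af 1 1 k) (by decide +kernel) i k
  · rw [pm_apply]; exact mt_one (q := fun i k => i = af u3 0 k) (by decide +kernel) i k

theorem Ce.rB_in (h : Ce p ζ w G) (hζ : (ζ : F) = dec ι 2) : ∀ X ∈ rB, In G (mt ι X) := by
  obtain ⟨a, b, c, d, e⟩ := h.gens hζ
  rw [← rB_eq]
  refine run_in _ _ ?_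
  simp only [List.forall_mem_cons, a, b, c, d, e]
  exact ⟨⟨_, h.x, rfl⟩, ⟨_, h.a, rfl⟩, ⟨_, h.wm, rfl⟩, ⟨_, h.s, rfl⟩, ⟨_, h.am _ _, rfl⟩, by simp⟩

theorem Ce.rC_in (h : Ce p ζ w G) (hζ : (ζ : F) = dec ι 2) :
    ∀ X ∈ rC, In (G ⊓ Subgroup.centralizer {jj F}) (mt ι X) := by
  obtain ⟨-, b, c, -, e⟩ := h.gens hζ
  rw [← rC_eq]
  refine run_in _ _ ?_
  simp only [List.forall_mem_cons, b, c, e]
  have m : ∀ {g}, g ∈ G → g * jj F = jj F * g → In (G ⊓ Subgroup.centralizer {jj F}) g := fun a b =>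
    ⟨_, ⟨a, Subgroup.mem_centralizer_singleton_iff.2 b⟩, rfl⟩
  refine ⟨m h.a (aa_jj ζ), m h.wm h.w_jj, m (h.am _ _) (comm_jj.2 fun i k => ?_), by simp⟩
  simp only [pm_apply, af_apply, add_zero, mul_neg, neg_inj]

/-- No root elements. -/
def Nr (G : Subgroup (GL I F)) : Prop := ∀ (i k : I) (h : i ≠ k) (c : F), et h c ∈ G → c = 0

theorem Ce.ex (h : Ce p ζ w G) (hζ : (ζ : F) = dec ι 2) (nr : Nr G) {x c : ℕ} {t : ℕ × ℕ} (hc : c < 8) (e : Ex x c t) :
    ¬ In G (1 + dec ι c • mt ι x) := fun hy => by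
  have := nth_in (run_in t.1 t.2 (R := a7 idc (s7 c x) :: rB) (List.forall_mem_cons.2
    ⟨by rwa [mt_a7, mt_id, mt_s7 ι hc], h.rB_in hζ⟩)) 0
  rw [show nth _ 0 = e01 from e] at this
  obtain ⟨g, hg, e⟩ := this
  refine one_ne_zero (nr 0 1 (by decide) 1 ((show g = _ from Units.ext ?_) ▸ hg))
  rw [e, coe_et]
  ext i k
  rw [mt_one (q := fun i k => i = k ∨ (0 = i ∧ 1 = k)) (by decide +kernel), Matrix.add_apply, Matrix.one_apply,
    Matrix.single_apply]
  by_cases a : i = k <;> by_cases b : 0 = i ∧ 1 = k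
  · exact absurd (b.1.trans (a.trans b.2.symm)) (by decide)
  · rw [if_pos (Or.inl a), if_pos a, if_neg b, add_zero]
  · rw [if_pos (Or.inr b), if_neg a, if_pos b, zero_add]
  · rw [if_neg (not_or.2 ⟨a, b⟩), if_neg a, if_neg b, add_zero]

theorem Ce.ex' (h : Ce p ζ w G) (hι : Function.Bijective ι) (hζ : (ζ : F) = dec ι 2) (nr : Nr G) {x : ℕ}
    {l : List (ℕ × ℕ)} (e : ∀ c < 8, 1 ≤ c → Ex x c (l.getD c (0, 0))) (a : F) (ha : In G (1 + a • mt ι x)) : a = 0 := by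
  obtain ⟨c, hc, rfl⟩ := exists_dec ι hι a
  rcases Nat.eq_zero_or_pos c with rfl | h1
  · exact dec_zero ι
  · exact (h.ex hζ nr hc (e c hc h1) ha).elim

theorem cs_of {T : Matrix I I F → Prop} (t : Cs (G ⊓ Subgroup.centralizer {jj F}) T) (m : ∀ M N, T M → T N → M * N = 0) :
    Cs (G ⊓ Subgroup.centralizer {jj F}) fun N => T N ∧ In G (1 + N) := by
  refine ⟨⟨t.zero, by rw [add_zero]; exact In.one⟩, fun M N a b => ⟨t.add _ _ a.1 b.1, ?_⟩, fun g hg N a => ⟨t.conj g hg N a.1, ?_⟩⟩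
  · have := a.2.mul b.2
    rwa [add_mul, one_mul, mul_add, mul_one, m _ _ a.1 b.1, add_zero, add_assoc, add_comm N] at this
  · have := (In.mul ⟨g, hg.1, rfl⟩ a.2).mul ⟨g⁻¹, inv_mem hg.1, rfl⟩
    rwa [mul_add, add_mul, mul_one, Units.mul_inv] at this

theorem comm_J {g : GL I F} (hg : g ∈ G ⊓ Subgroup.centralizer {jj F}) :
    (g : Matrix I I F) * mt ι cJ = mt ι cJ * g := by
  rw [mt_J, mul_sub, sub_mul, mul_one, one_mul, ← Units.val_mul, Subgroup.mem_centralizer_singleton_iff.1 hg.2,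
    Units.val_mul]

theorem cs_a : Cs (G ⊓ Subgroup.centralizer {jj F}) fun N => (mt ι cJ * N = 0 ∧ ∃ N', N = N' * mt ι cJ) ∧ In G (1 + N) := by
  refine cs_of ⟨⟨mul_zero _, 0, (zero_mul _).symm⟩, ?_, ?_⟩ ?_
  · rintro _ _ ⟨a, M, rfl⟩ ⟨b, N, rfl⟩
    exact ⟨by rw [mul_add, a, b, add_zero], M + N, (add_mul _ _ _).symm⟩
  · rintro g hg _ ⟨a, M, rfl⟩
    refine ⟨by rw [← mul_assoc, ← mul_assoc, ← comm_J hg, mul_assoc (g : Matrix I I F), a, mul_zero, zero_mul],
      g * M * (g⁻¹ : GL I F), ?_⟩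
    simp only [mul_assoc, comm_J (ι := ι) (inv_mem hg)]
  · rintro _ N ⟨-, M, rfl⟩ ⟨b, -⟩
    rw [mul_assoc, b, mul_zero]

theorem cs_b : Cs (G ⊓ Subgroup.centralizer {jj F}) fun N => (N * mt ι cJ = 0 ∧ ∃ N', N = mt ι cJ * N') ∧ In G (1 + N) := by
  refine cs_of ⟨⟨zero_mul _, 0, (mul_zero _).symm⟩, ?_, ?_⟩ ?_
  · rintro _ _ ⟨a, M, rfl⟩ ⟨b, N, rfl⟩
    exact ⟨by rw [add_mul, a, b, add_zero], M + N, (mul_add _ _ _).symm⟩
  · rintro g hg _ ⟨a, M, rfl⟩
    refine ⟨by rw [mul_assoc, comm_J (inv_mem hg), ← mul_assoc, mul_assoc (g : Matrix I I F), a, mul_zero, zero_mul],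
      g * M * (g⁻¹ : GL I F), ?_⟩
    simp only [← mul_assoc, comm_J (ι := ι) hg]
  · rintro M _ ⟨a, -⟩ ⟨-, N, rfl⟩
    rw [← mul_assoc, a, zero_mul]

theorem min_ab : ∀ i : I, min i.val (7 - i.val) = (ab i).val := by decide

theorem Nn_eq {S : Fin 4 × Fin 4 → Bool} {n : Matrix (Fin 4) (Fin 4) F} (hn : ∀ k l, S (k, l) = false → n k l = 0) :
    Nn n = cmb ι (fun z => n z.1 z.2) (cE S) := Matrix.ext fun i k => by
  have e : ∀ z, mt ι (cE S z) i k = if S z = true ∧ z = (ab i, ab k) then 1 else 0 := fun z => by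
    refine (matOf_mkM ι e7 (fun _ _ => by split_ifs <;> decide) i k).trans ?_
    rw [apply_ite (dec ι), dec_one, dec_zero]
    refine if_congr (and_congr_right fun _ => ?_) rfl rfl
    change min i.val (7 - i.val) = _ ∧ min k.val (7 - k.val) = _ ↔ _
    rw [min_ab, min_ab, Prod.ext_iff, Fin.ext_iff, Fin.ext_iff, eq_comm, eq_comm (a := (ab k).val)]
  rw [cmb, Matrix.sum_apply, Finset.sum_eq_single (ab i, ab k) (fun z _ c => by simp [e, c]) (by simp), Nn_apply,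
    Matrix.smul_apply, e]
  cases c : S (ab i, ab k)
  · simp [hn _ _ c]
  · simp

/-- Left factors of the basis matrices. -/
noncomputable def cF (S : Fin 4 × Fin 4 → Bool) (z : Fin 4 × Fin 4) : ℕ :=
  mkM 3 7 fun i k => if S z = true ∧ min i (7 - i) = z.1.val ∧ k = z.2.val then 1 else 0

/-- Right factors of the basis matrices. -/
noncomputable def cG (S : Fin 4 × Fin 4 → Bool) (z : Fin 4 × Fin 4) : ℕ :=
  mkM 3 7 fun i k => if S z = true ∧ i = z.1.val ∧ min k (7 - k) = z.2.val then 1 else 0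

theorem ty_a {E E' : Fin 4 × Fin 4 → ℕ} (H : ∀ z, m7 cJ (E z) = 0 ∧ E z = m7 (E' z) cJ) (c : Fin 4 × Fin 4 → F) :
    mt ι cJ * cmb ι c E = 0 ∧ ∃ N', cmb ι c E = N' * mt ι cJ :=
  ⟨by simp only [cmb, Finset.mul_sum, mul_smul_comm, ← mt_m7, (H _).1, mt_zero, smul_zero, Finset.sum_const_zero],
    cmb ι c E', by simp only [cmb, Finset.sum_mul, smul_mul_assoc, ← mt_m7, ← (H _).2]⟩

theorem ty_b {E E' : Fin 4 × Fin 4 → ℕ} (H : ∀ z, m7 (E z) cJ = 0 ∧ E z = m7 cJ (E' z)) (c : Fin 4 × Fin 4 → F) :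
    cmb ι c E * mt ι cJ = 0 ∧ ∃ N', cmb ι c E = mt ι cJ * N' :=
  ⟨by simp only [cmb, Finset.sum_mul, smul_mul_assoc, ← mt_m7, (H _).1, mt_zero, smul_zero, Finset.sum_const_zero],
    cmb ι c E', by simp only [cmb, Finset.mul_sum, mul_smul_comm, ← mt_m7, ← (H _).2]⟩

theorem Ce.k0 (h : Ce p ζ w G) (hι : Function.Bijective ι) (hζ : (ζ : F) = dec ι 2) (nr : Nr G) :
    ∀ g ∈ G, g * jj F = jj F * g → On (Jm F) g 1 → (g : Matrix I I F) 0 0 = 1 → g = 1 ∨ g = jj F := by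
  have h2 := two8 ι
  refine k0_of h2 (fun n a b hn => ?_) (fun n a hn k => ?_) fun n a hn k => ?_
  · have e := Nn_eq (ι := ι) (S := fun z => decide (z.1 ≠ 0 ∧ z.2 ≠ 0)) (n := n) fun k l c => by
      rcases not_and_or.1 (of_decide_eq_false c) with c | c
      · rw [show k = 0 from not_not.1 c, a]
      · rw [show l = 0 from not_not.1 c, b]
    have H := cs_a.fin (h.rC_in hζ) ct0 (fun a y => h.ex' hι hζ nr ex0 a y.2)
      ⟨ty_a (E' := cF fun z => decide (z.1 ≠ 0 ∧ z.2 ≠ 0)) (by decide +kernel) _, e ▸ hn⟩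
    simp only [apply_ite (dec ι), dec_one, dec_zero] at H
    have e0 : ∀ r s, n r s = n 1 1 • if r = s ∧ r ≠ 0 then (1 : F) else 0 := fun r s => by
      have := H (r, s)
      fin_cases r <;> fin_cases s <;> simp [Fintype.sum_prod_type, Fin.sum_univ_four, a, b] at this ⊢ <;>
        first | exact this | linear_combination this - n 1 1 * h2
    have e1 : Nn n = n 1 1 • mt ι cJ := Matrix.ext fun i k => by
      rw [Nn_apply, Matrix.smul_apply, mt_one (q := fun i k => ab i = ab k ∧ ab i ≠ 0) (by decide +kernel), e0]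
    obtain ⟨c, hc, ec⟩ := exists_dec ι hι (n 1 1)
    rw [e1, ← ec] at hn
    rcases Nat.lt_or_ge c 2 with h1 | h1
    · interval_cases c
      · exact Or.inl (Matrix.ext fun k l => by rw [e0, ← ec, dec_zero, zero_smul]; rfl)
      · exact Or.inr (by rw [e1, ← ec, dec_one, one_smul, mt_J, add_sub_cancel])
    · exact (h.ex hζ nr hc (exJ c hc h1) hn).elim
  · have e := Nn_eq (ι := ι) (S := fun z => decide (z.2 ≠ 0)) (n := n) fun k l c => by
      rw [show l = 0 from not_not.1 (of_decide_eq_false c), a]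
    have H := cs_a.fin (h.rC_in hζ) cta (fun a y => h.ex' hι hζ nr exa a y.2)
      ⟨ty_a (E' := cF fun z => decide (z.2 ≠ 0)) (by decide +kernel) _, e ▸ hn⟩ (0, k)
    simp only [apply_ite (dec ι), dec_one, dec_zero] at H
    by_cases c : k = 0
    · rw [c, a]
    · simpa [c] using H
  · have e := Nn_eq (ι := ι) (S := fun z => decide (z.1 ≠ 0)) (n := n) fun k l c => by
      rw [show k = 0 from not_not.1 (of_decide_eq_false c), a]
    have H := cs_b.fin (h.rC_in hζ) ctb (fun a y => h.ex' hι hζ nr exb a y.2)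
      ⟨ty_b (E' := cG fun z => decide (z.1 ≠ 0)) (by decide +kernel) _, e ▸ hn⟩ (k, 0)
    simp only [apply_ite (dec ι), dec_one, dec_zero] at H
    by_cases c : k = 0
    · rw [c, a]
    · simpa [c] using H

end Cfsg.Agent.XS
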