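import Cfsg.Agent.XS.QDefs
import Cfsg.Agent.H56.Fields

/-! The field with eight elements: packed matrices, straight line programs, operators. -/

set_option autoImplicit false
set_option linter.unusedSectionVars false

namespace Cfsg.Agent.XS

open Cfsg Cfsg.Geo Cfsg.Agent.H14 Cfsg.Agent.H56 Matrix

/-- Addition table. -/
def tA : ℕ := nat_lit 0x5397721ab3e4c1de5688fac977053b3e21ade54c1fac688

/-- Multiplication table. -/
def tT : ℕ := nat_lit 0x73157889d3f0cfa868356ee0467b98bcbd10fac688000000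

/-- Entry of a packed matrix. -/
def e8 (X i k : ℕ) : ℕ := ent 3 8 7 X i k

/-- Product. -/
noncomputable def m7 (X Y : ℕ) : ℕ := mm 3 8 tA tT 7 X Y

/-- Sum. -/
noncomputable def a7 (X Y : ℕ) : ℕ := mkM 3 7 fun i k => op2 3 8 tA (e8 X i k) (e8 Y i k)

/-- Scalar multiple. -/
noncomputable def s7 (c X : ℕ) : ℕ := mkM 3 7 fun i k => op2 3 8 tT c (e8 X i k)

/-- The identity. -/
def idc : ℕ := nat_lit 0x1000001000001000001000001000001000001

/-- A register. -/
noncomputable def nth (R : List ℕ) : ℕ → ℕ :=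
  List.rec (fun _ => idc) (fun a _ ih i => Nat.rec a (fun i _ => ih i) i) R

/-- A straight line program with `n` steps. -/
noncomputable def run (P n : ℕ) : List ℕ → List ℕ :=
  Nat.rec (fun R => R) (fun t ih R => force (nth R (app 8 256 P (Nat.mul 2 t))) fun X =>
    force (nth R (app 8 256 P (Nat.succ (Nat.mul 2 t)))) fun Y => force (m7 X Y) fun Z => ih (Z :: R)) n

/-- A sum of conjugates. -/
noncomputable def stg (R : List ℕ) (s : List (ℕ × ℕ)) (X : ℕ) : ℕ :=
  List.rec 0 (fun h _ ih => force (nth R h.1) fun g => force (m7 g X) fun Y => force (m7 Y h.2) fun Z =>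
    force ih fun W => a7 Z W) s

/-- A composite of sums of conjugates. -/
noncomputable def opr (R : List ℕ) (L : List (List (ℕ × ℕ))) : ℕ → ℕ :=
  List.rec (fun X => X) (fun s _ ih X => force (stg R s X) ih) L

/-- The second entries are inverses. -/
noncomputable def okL (R : List ℕ) (L : List (List (ℕ × ℕ))) : Prop := ∀ s ∈ L, ∀ h ∈ s, m7 (nth R h.1) h.2 = idc

noncomputable instance okDec (R : List ℕ) (L : List (List (ℕ × ℕ))) : Decidable (okL R L) :=
  List.decidableBAll _ _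

/-- The indices. -/
def e7 : I ≃ Fin 7 := Equiv.refl _

variable {F : Type*} [Field F] (ι : TF F8 →+* F) {G : Subgroup (GL I F)}

/-- The matrix with a given code. -/
def mt (X : ℕ) : Matrix I I F := matOf ι e7 X

theorem mt_apply (X : ℕ) (i k : I) : mt ι X i k = dec ι (e8 X i.val k.val) := rfl

theorem mt_m7 (X Y : ℕ) : mt ι (m7 X Y) = mt ι X * mt ι Y := matOf_mm ι e7 X Y

theorem e8_lt (X i k : ℕ) : e8 X i k < F8.B := ent_lt (t := F8) 7 X i k

theorem mt_a7 (X Y : ℕ) : mt ι (a7 X Y) = mt ι X + mt ι Y := Matrix.ext fun i k =>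
  (matOf_mkM ι e7 (fun _ _ => op2_lt F8.laws.B_eq _ _ _) i k).trans (dec_add ι (e8_lt _ _ _) (e8_lt _ _ _))

theorem mt_s7 {c : ℕ} (hc : c < 8) (X : ℕ) : mt ι (s7 c X) = dec ι c • mt ι X := Matrix.ext fun i k =>
  (matOf_mkM ι e7 (fun _ _ => op2_lt F8.laws.B_eq _ _ _) i k).trans (dec_mul ι hc (e8_lt _ _ _))

theorem mt_id : mt ι idc = 1 := by
  rw [show idc = mid F8.b 7 by decide +kernel]; exact matOf_mid ι e7

theorem mt_zero : mt ι 0 = 0 := Matrix.ext fun i k => by
  rw [mt_apply, show e8 0 i.val k.val = 0 by simp [e8, ent, app]]; exact dec_zero ι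

include ι in
theorem two8 : (2 : F) = 0 := by
  rw [← map_ofNat ι 2, show (2 : TF F8) = 0 by decide +kernel, map_zero]

variable {ι}

theorem nth_in {R : List ℕ} (h : ∀ X ∈ R, In G (mt ι X)) (i : ℕ) : In G (mt ι (nth R i)) := by
  induction R generalizing i with
  | nil => exact mt_id ι ▸ In.one
  | cons a R ih =>
    cases i with
    | zero => exact h a List.mem_cons_self
    | succ i => exact ih (fun X hX => h X (List.mem_cons_of_mem _ hX)) i

theorem run_in (P n : ℕ) {R : List ℕ} (h : ∀ X ∈ R, In G (mt ι X)) : ∀ X ∈ run P n R, In G (mt ι X) := by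
  induction n generalizing R with
  | zero => exact h
  | succ t ih =>
    have : run P (t + 1) R = force (nth R (app 8 256 P (Nat.mul 2 t))) fun X =>
      force (nth R (app 8 256 P (Nat.succ (Nat.mul 2 t)))) fun Y => force (m7 X Y) fun Z => run P t (Z :: R) := rfl
    rw [this, force_eq, force_eq, force_eq]
    refine ih fun X hX => ?_
    refine (List.mem_cons.1 hX).elim (fun e => ?_) fun hX => ?_
    · rw [e, mt_m7]; exact (nth_in h _).mul (nth_in h _)
    · exact h X hX

/-- A set of matrices closed under sums and conjugation by `C`. -/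
structure Cs (C : Subgroup (GL I F)) (Y : Matrix I I F → Prop) : Prop where
  zero : Y 0
  add : ∀ M N, Y M → Y N → Y (M + N)
  conj : ∀ g ∈ C, ∀ N, Y N → Y ((g : Matrix I I F) * N * ((g⁻¹ : GL I F) : Matrix I I F))

variable (ι) in
/-- A linear combination. -/
def cmb (c : Fin 4 × Fin 4 → F) (E : Fin 4 × Fin 4 → ℕ) : Matrix I I F := ∑ z, c z • mt ι (E z)

variable {Y : Matrix I I F → Prop} {R : List ℕ} {c : Fin 4 × Fin 4 → F}

theorem Cs.stg (h : Cs G Y) (hR : ∀ X ∈ R, In G (mt ι X)) {s : List (ℕ × ℕ)}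
    (hs : ∀ h ∈ s, m7 (nth R h.1) h.2 = idc) {E : Fin 4 × Fin 4 → ℕ} (hE : Y (cmb ι c E)) :
    Y (cmb ι c fun z => stg R s (E z)) := by
  induction s with
  | nil => simpa [cmb, XS.stg, mt_zero] using h.zero
  | cons u s ih =>
    obtain ⟨g, hg, e⟩ := nth_in hR u.1
    have e' : mt ι u.2 = ((g⁻¹ : GL I F) : Matrix I I F) := by
      have := congrArg (mt ι) (hs u List.mem_cons_self)
      rw [mt_m7, mt_id, ← e] at this
      exact (Units.inv_eq_of_mul_eq_one_right this).symm
    have e1 : ∀ X, XS.stg R (u :: s) X = a7 (m7 (m7 (nth R u.1) X) u.2) (XS.stg R s X) := fun X => by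
      simp only [XS.stg, force_eq]
    have := h.add _ _ (h.conj g hg _ hE) (ih fun v hv => hs v (List.mem_cons_of_mem _ hv))
    convert this using 1
    simp only [cmb, e1, mt_a7, mt_m7, ← e, e', smul_add, Finset.sum_add_distrib, Finset.mul_sum, Finset.sum_mul,
      mul_smul_comm, smul_mul_assoc]

theorem Cs.opr (h : Cs G Y) (hR : ∀ X ∈ R, In G (mt ι X)) {L : List (List (ℕ × ℕ))} (hL : okL R L)
    {E : Fin 4 × Fin 4 → ℕ} (hE : Y (cmb ι c E)) : Y (cmb ι c fun z => opr R L (E z)) := by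
  induction L generalizing E with
  | nil => exact hE
  | cons s L ih =>
    have e1 : ∀ X, XS.opr R (s :: L) X = XS.opr R L (XS.stg R s X) := fun X => by simp only [XS.opr, force_eq]
    simp only [e1]
    exact ih (fun t ht => hL t (List.mem_cons_of_mem _ ht)) (h.stg hR (hL s List.mem_cons_self) hE)

/-- The coefficient tables. -/
def cf (T i : ℕ) (z : Fin 4 × Fin 4) : ℕ := app 3 8 T (16 * i + 4 * z.1.val + z.2.val)

theorem cf_lt (T i : ℕ) (z : Fin 4 × Fin 4) : cf T i z < 8 := app_lt (b := 3) rfl _ _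

/-- The certificate for a family of rank one operators. -/
structure Ct (R : List ℕ) (r : ℕ) (L : ℕ → List (List (ℕ × ℕ))) (E : Fin 4 × Fin 4 → ℕ) (x f y : ℕ)
    (P : Fin 4 × Fin 4 → Fin 4 × Fin 4 → ℕ) : Prop where
  ok : ∀ i < r, okL R (L i)
  op : ∀ i < r, ∀ z, opr R (L i) (E z) = s7 (cf f i z) x
  sol : ∀ z z', P z z' = fsum 3 8 tA r fun i => op2 3 8 tT (cf f i z) (cf y i z')

theorem Cs.fin (h : Cs G Y) (hR : ∀ X ∈ R, In G (mt ι X)) {r : ℕ} {L : ℕ → List (List (ℕ × ℕ))}
    {E : Fin 4 × Fin 4 → ℕ} {x f y : ℕ} {P : Fin 4 × Fin 4 → Fin 4 × Fin 4 → ℕ} (t : Ct R r L E x f y P)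
    (ex : ∀ a : F, Y (a • mt ι x) → a = 0) (hE : Y (cmb ι c E)) (z' : Fin 4 × Fin 4) :
    ∑ z, c z * dec ι (P z z') = 0 := by
  have h1 : ∀ i < r, ∑ z, c z * dec ι (cf f i z) = 0 := fun i hi => ex _ (by
    have := h.opr hR (t.ok i hi) hE
    simpa only [cmb, t.op i hi, mt_s7 ι (cf_lt _ _ _), smul_smul, ← Finset.sum_smul] using this)
  have h2 : ∀ z, dec ι (P z z') = ∑ i ∈ Finset.range r, dec ι (cf f i z) * dec ι (cf y i z') := fun z => by
    rw [t.sol]
    exact (dec_fsum ι r _ fun _ => op2_lt F8.laws.B_eq _ _ _).trans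
      (Finset.sum_congr rfl fun i _ => dec_mul ι (cf_lt _ _ _) (cf_lt _ _ _))
  simp only [h2, Finset.mul_sum, ← mul_assoc]
  rw [Finset.sum_comm]
  exact Finset.sum_eq_zero fun i hi => by rw [← Finset.sum_mul, h1 i (Finset.mem_range.1 hi), zero_mul]

end Cfsg.Agent.XS
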