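import Cfsg.Agent.XS.Defs

set_option autoImplicit false
set_option linter.unusedSectionVars false

namespace Cfsg.Agent.XS

open Cfsg Cfsg.Geo Cfsg.Agent.H98 Cfsg.Agent.H99 Matrix
open Cfsg.Agent.N9 (pm dg On pm_apply dg_apply coe_dg pm_dg conj_pm mul_pm_apply pm_mul_apply dg_const)

variable {F : Type*} [Field F] [Fintype F] {ι : Type} [Fintype ι] [DecidableEq ι] {p : ℕ} {ζ : Fˣ}
  {w g : GL I F} {G : Subgroup (GL I F)} {e : ι → I} {v : GL ι F} {Γ K Q P : Subgroup (GL ι F)}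

namespace Res

theorem sm_inj : ∀ k l, sm k = sm l ↔ k = l := by decide
theorem sm_neg : ∀ k l, sm k ≠ -sm l := by decide
theorem sm_zero : ∀ k, (0 : I) ≠ sm k ∧ (0 : I) ≠ -sm k := by decide
theorem sm_all : ∀ i : I, i = 0 ∨ ∃ k, i = sm k ∨ i = -sm k := by decide
theorem sp_inj : ∀ k l, (sp k = sp l ∨ sp k = -sp l) ↔ k = l := by decide
theorem sp_inj' : ∀ k l, (-sp k = sp l ∨ -sp k = -sp l) ↔ k = l := by decide
theorem sp_all : ∀ i : I, ∃ k, i = sp k ∨ i = -sp k := by decide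
theorem sp_ne : ∀ l, l ≠ 0 → sp l ≠ -sp l := by decide
theorem sp_succ : ∀ k : Fin 3, sp k.succ = sm k := by decide
theorem em_inj : Function.Injective em := by decide
theorem ep_inj : Function.Injective ep := by decide
theorem sm_mul : ∀ k l, sm k * sm l ≠ sm k * -sm l := by decide

theorem mul_Jm {κ : Type} (A : Matrix κ I F) (i : κ) (l : Fin 3) :
    (A * Jm F) i l = A i (sm l) - A i (-sm l) := by
  simp [Matrix.mul_apply, Jm, mul_sub, Finset.sum_sub_distrib]

theorem mul_Jp {κ : Type} (A : Matrix κ I F) (i : κ) (l : Fin 4) :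
    (A * Jp F) i l = if l = 0 then A i 0 else A i (sp l) + A i (-sp l) := by
  split_ifs with c
  · subst c
    simp [Matrix.mul_apply, Jp, sp]
  · have : ∀ j : I, A i j * (if j = sp l ∨ j = -sp l then 1 else 0) =
        (if j = sp l then A i j else 0) + if j = -sp l then A i j else 0 := fun j => by
      by_cases h1 : j = sp l
      · simp [h1, sp_ne l c]
      · by_cases h2 : j = -sp l
        · simp [h2, (sp_ne l c).symm]
        · simp [h1, h2]
    simp [Matrix.mul_apply, Jp, this, Finset.sum_add_distrib]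

theorem Km_mul {κ : Type} (A : Matrix I κ F) (k : Fin 3) (j : κ) : (Km F * A) k j = A (sm k) j := by
  simp [Matrix.mul_apply, Km]

theorem Kp_mul {κ : Type} (A : Matrix I κ F) (k : Fin 4) (j : κ) : (Kp F * A) k j = A (sp k) j := by
  simp [Matrix.mul_apply, Kp]

theorem Jm_0 {κ : Type} (B : Matrix (Fin 3) κ F) (j : κ) : (Jm F * B) 0 j = 0 := by
  simp [Matrix.mul_apply, Jm, (sm_zero _).1, (sm_zero _).2]

theorem Jm_p {κ : Type} (B : Matrix (Fin 3) κ F) (k : Fin 3) (j : κ) : (Jm F * B) (sm k) j = B k j := by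
  simp [Matrix.mul_apply, Jm, sm_inj, sm_neg]

theorem Jm_n {κ : Type} (B : Matrix (Fin 3) κ F) (k : Fin 3) (j : κ) : (Jm F * B) (-sm k) j = -B k j := by
  simp [Matrix.mul_apply, Jm, sm_inj, (sm_neg _ _).symm]

theorem Jp_p {κ : Type} (B : Matrix (Fin 4) κ F) (k : Fin 4) (j : κ) : (Jp F * B) (sp k) j = B k j := by
  simp only [Matrix.mul_apply, Jp, of_apply, sp_inj]
  simp

theorem Jp_n {κ : Type} (B : Matrix (Fin 4) κ F) (k : Fin 4) (j : κ) : (Jp F * B) (-sp k) j = B k j := by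
  simp only [Matrix.mul_apply, Jp, of_apply, sp_inj']
  simp

end Res

open Res

theorem Km_Jm : Km F * Jm F = 1 := by
  ext k l
  rw [Km_mul, ← Matrix.mul_one (Jm F), Jm_p]

theorem Kp_Jp : Kp F * Jp F = 1 := by
  ext k l
  rw [Kp_mul, ← Matrix.mul_one (Jp F), Jp_p]

theorem Res.ex_m (c : g * jj F = jj F * g) :
    Jm F * (Km F * ((g : Matrix I I F) * Jm F)) = (g : Matrix I I F) * Jm F := by
  have c' := comm_jj.1 c
  ext i l
  rcases sm_all i with rfl | ⟨k, rfl | rfl⟩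
  · rw [Jm_0, mul_Jm, ← c' 0 (sm l), neg_zero, sub_self]
  · rw [Jm_p, Km_mul]
  · rw [Jm_n, Km_mul, mul_Jm, mul_Jm, c', ← c' (sm k) (-sm l), neg_neg, neg_sub]

theorem exists_m (c : g * jj F = jj F * g) : ∃ γ, On (Jm F) g γ :=
  N9.exists_on Km_Jm (Res.ex_m c)

theorem exists_p (c : g * jj F = jj F * g) : ∃ γ, On (Jp F) g γ := by
  refine N9.exists_on Kp_Jp ?_
  have c' := comm_jj.1 c
  ext i l
  obtain ⟨k, rfl | rfl⟩ := sp_all i
  · rw [Jp_p, Kp_mul]
  · rw [Jp_n, Kp_mul, mul_Jp, mul_Jp, c', ← c' (sp k) (-sp l), ← c' (sp k) 0, neg_neg, neg_zero, add_comm]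

theorem on_m_apply {γ : GL (Fin 3) F} (o : On (Jm F) g γ) (k l : Fin 3) :
    (γ : Matrix (Fin 3) (Fin 3) F) k l = (g : Matrix I I F) (sm k) (sm l) - (g : Matrix I I F) (sm k) (-sm l) := by
  rw [← mul_Jm, o, Jm_p]

theorem on_p_apply {γ : GL (Fin 4) F} (o : On (Jp F) g γ) (k l : Fin 4) :
    (γ : Matrix (Fin 4) (Fin 4) F) k l = if l = 0 then (g : Matrix I I F) (sp k) 0 else
      (g : Matrix I I F) (sp k) (sp l) + (g : Matrix I I F) (sp k) (-sp l) := by
  rw [← mul_Jp, o, Jp_p]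

theorem Fd.ext (h : Fd F p ζ) {g' : GL I F} {γ : GL (Fin 3) F} {δ : GL (Fin 4) F} (a : On (Jm F) g γ) (a' : On (Jm F) g' γ)
    (b : On (Jp F) g δ) (b' : On (Jp F) g' δ) : g = g' := by
  have e1 := fun i l => congrFun (congrFun (a.trans a'.symm) i) l
  have e2 := fun i l => congrFun (congrFun (b.trans b'.symm) i) l
  simp only [mul_Jm, mul_Jp] at e1 e2
  ext i j
  rcases sm_all j with rfl | ⟨k, hk⟩
  · simpa using e2 i 0
  · have e3 := e1 i k
    have e4 := e2 i k.succ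
    rw [if_neg (Fin.succ_ne_zero k), if_neg (Fin.succ_ne_zero k), sp_succ] at e4
    rcases hk with rfl | rfl
    · exact mul_left_cancel₀ h.two_ne (by linear_combination e3 + e4)
    · exact mul_left_cancel₀ h.two_ne (by linear_combination e4 - e3)

theorem Res.on_m {γ : GL (Fin 3) F} (c : g * jj F = jj F * g) (h : ∀ k l, (γ : Matrix (Fin 3) (Fin 3) F) k l =
    (g : Matrix I I F) (sm k) (sm l) - (g : Matrix I I F) (sm k) (-sm l)) : On (Jm F) g γ := by
  obtain ⟨γ', o⟩ := exists_m c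
  rwa [show γ = γ' from Units.ext (Matrix.ext fun k l => by rw [h, on_m_apply o])]

theorem Res.on_p {γ : GL (Fin 4) F} (c : g * jj F = jj F * g) (h : ∀ k l, (γ : Matrix (Fin 4) (Fin 4) F) k l =
    if l = 0 then (g : Matrix I I F) (sp k) 0 else
      (g : Matrix I I F) (sp k) (sp l) + (g : Matrix I I F) (sp k) (-sp l)) : On (Jp F) g γ := by
  obtain ⟨γ', o⟩ := exists_p c
  rwa [show γ = γ' from Units.ext (Matrix.ext fun k l => by rw [h, on_p_apply o])]

theorem on_mono {t : I → Fˣ} {π : Equiv.Perm I} (hπ : ∀ i, π i = i ∨ π i = -i)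
    (c : dg t * pm F π * jj F = jj F * (dg t * pm F π)) : (∀ i, t (-i) = t i) ∧
      On (Jm F) (dg t * pm F π) (dg fun k => if π (sm k) = sm k then t (sm k) else -t (sm k)) ∧
      On (Jp F) (dg t * pm F π) (dg fun k => t (sp k)) := by
  have c' := comm_jj.1 c
  simp only [dg_pm_apply] at c'
  have hn : ∀ i, π (-i) = -π i ∧ t (-π i) = t (π i) := fun i => by
    have := c' (π i) i
    rw [if_pos rfl] at this
    by_cases k : -π i = π (-i)
    · rw [if_pos k] at this
      exact ⟨k.symm, Units.ext this⟩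
    · rw [if_neg k] at this
      exact absurd this.symm (t _).ne_zero
  refine ⟨fun i => by simpa using (hn (π⁻¹ i)).2, Res.on_m c fun k l => ?_, Res.on_p c fun k l => ?_⟩
  · rw [dg_apply, dg_pm_apply, dg_pm_apply, (hn _).1]
    by_cases e : k = l
    · subst e
      rcases hπ (sm k) with q | q
      · simp [q, sm_neg]
      · simp [q, sm_neg, (sm_neg _ _).symm]
    · rcases hπ (sm l) with q | q <;> simp [q, e, sm_neg, sm_inj]
  · rw [dg_apply, dg_pm_apply, dg_pm_apply, dg_pm_apply, (hn _).1]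
    have q0 : π 0 = 0 := by simpa using hπ 0
    have s0 : sp 0 = 0 := rfl
    have n1 : k ≠ l → sp k ≠ sp l ∧ sp k ≠ -sp l := fun e => not_or.1 fun q => e ((sp_inj k l).1 q)
    by_cases e : k = l
    · subst e
      by_cases z : k = 0
      · simp [z, q0, s0]
      · rcases hπ (sp k) with q | q <;> simp [q, z, sp_ne k z]
    · by_cases z : l = 0
      · subst z
        simp [q0, e, (s0 ▸ (n1 e).1 : sp k ≠ 0)]
      · rcases hπ (sp l) with q | q <;> simp [q, e, z, n1 e]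

theorem on_j_m : On (Jm F) (jj F) (scal (Fin 3) (-1)) := Res.on_m rfl fun k l => by
  simp [jj_apply, coe_scal, one_apply, sm_neg, sm_inj]
  split_ifs <;> simp

theorem on_j_p : On (Jp F) (jj F) 1 := Res.on_p rfl fun k l => by
  have n1 : k ≠ l → sp k ≠ sp l ∧ sp k ≠ -sp l := fun e => not_or.1 fun q => e ((sp_inj k l).1 q)
  have s0 : sp 0 = 0 := rfl
  simp only [jj_apply, Units.val_one, one_apply, neg_neg, neg_zero]
  by_cases e : k = l
  · subst e
    by_cases z : k = 0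
    · simp [z, s0]
    · simp [z, sp_ne k z]
  · by_cases z : l = 0
    · subst z
      simp [e, (s0 ▸ (n1 e).1 : sp k ≠ 0)]
    · simp [e, z, n1 e]

theorem on_a_m : On (Jm F) (aa ζ) (ad ζ em) := by
  have := (on_mono (t := fun i => ze ζ (i * i)) (π := 1) (fun i => Or.inl rfl)
    (by rw [map_one, mul_one]; exact aa_jj ζ)).2.1
  simp only [map_one, mul_one, Equiv.Perm.one_apply, if_true] at this
  exact this

theorem on_a_p : On (Jp F) (aa ζ) (ad ζ ep) := by
  have := (on_mono (t := fun i => ze ζ (i * i)) (π := 1) (fun i => Or.inl rfl)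
    (by rw [map_one, mul_one]; exact aa_jj ζ)).2.2
  rw [map_one, mul_one] at this
  exact this

theorem Res.sc (h : Cl p ζ w G) (J : Matrix I ι F) : scalars ι F ≤ Gr J G := fun z hz => by
  obtain ⟨c, rfl⟩ := mem_scalars_iff'.1 hz
  exact ⟨_, h.sc (scal_mem c), scal_comm _ _, On.scal c⟩

theorem Cl.wh_m (h : Cl p ζ w G) : ∃ u, On (Jm F) w u ∧ WH p ζ em u (Gr (Jm F) G) ∧ u * u ∈ scalars (Fin 3) F := by
  obtain ⟨u, o⟩ := exists_m h.w_jj
  refine ⟨u, o, ⟨h.toFd, em_inj, by simp, by simp, Res.sc h _, ⟨_, h.a, aa_jj ζ, on_a_m⟩, ⟨_, h.wm, h.w_jj, o⟩,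
    fun k l => ?_⟩, ?_⟩
  · rw [on_m_apply o, h.hw, wM, of_apply, of_apply, sub_ne_zero]
    exact fun e => sm_mul k l (h.ze_inj (Units.ext e))
  · have o2 := o.mul o
    rw [h.ww] at o2
    rw [On.unique Km_Jm o2 ((On.scal _).mul on_j_m)]
    exact mul_mem (scal_mem _) (scal_mem _)

theorem Cl.wh_p (h : Cl p ζ w G) : ∃ u, On (Jp F) w u ∧ WH p ζ ep u (Gr (Jp F) G) := by
  obtain ⟨u, o⟩ := exists_p h.w_jj
  refine ⟨u, o, h.toFd, ep_inj, by simp, by simp, Res.sc h _, ⟨_, h.a, aa_jj ζ, on_a_p⟩, ⟨_, h.wm, h.w_jj, o⟩,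
    fun k l => ?_⟩
  rw [on_p_apply o, h.hw, wM, of_apply, of_apply, of_apply]
  split_ifs
  · exact Units.ne_zero _
  · refine fun e => h.ze_ne_neg (sp k * sp l - sp k * -sp l) ?_
    rw [h.ze_sub, Units.val_div_eq_div_val, div_eq_iff (Units.ne_zero _)]
    linear_combination e

end Cfsg.Agent.XS
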