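import Cfsg.Agent.XS.Defs

set_option autoImplicit false
set_option linter.unusedSectionVars false

namespace Cfsg.Agent.XS

open Cfsg Cfsg.Geo Cfsg.Agent.H98 Cfsg.Agent.H99 Matrix
open Cfsg.Agent.N9 (pm dg On pm_apply dg_apply coe_dg pm_dg conj_pm mul_pm_apply pm_mul_apply dg_const)

variable {F : Type*} [Field F] [Fintype F] {ι : Type} [Fintype ι] [DecidableEq ι] {p : ℕ} {ζ : Fˣ}
  {w g : GL I F} {G : Subgroup (GL I F)} {e : ι → I} {v : GL ι F} {Γ K Q P : Subgroup (GL ι F)}

namespace Root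

theorem et_add {i k : ι} (h : i ≠ k) (c d : F) : et h (c + d) = et h c * et h d := Units.ext (by
  rw [Units.val_mul, coe_et, coe_et, coe_et, add_mul, mul_add, mul_add, single_mul_single_of_ne _ _ _ _ h.symm,
    single_add]
  simp only [one_mul, mul_one, add_zero]
  abel)

theorem et_zero {i k : ι} (h : i ≠ k) : et h (0 : F) = 1 := Units.ext (by simp [coe_et])

theorem et_neg {i k : ι} (h : i ≠ k) (c : F) : et h (-c) = (et h c)⁻¹ :=
  eq_inv_of_mul_eq_one_left (by rw [← et_add, neg_add_cancel, et_zero])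

theorem pm_et (π : Equiv.Perm ι) {i k i' k' : ι} (h : i ≠ k) (h' : i' ≠ k') (e1 : π i = i') (e2 : π k = k') (c : F) :
    pm F π * et h c * (pm F π)⁻¹ = et h' c := Units.ext (Matrix.ext fun a b => by
  subst e1 e2
  simp only [conj_pm, et_apply, EmbeddingLike.apply_eq_iff_eq]
  simp only [Equiv.Perm.eq_inv_iff_eq])

theorem dg_et (t : ι → Fˣ) {i k : ι} (h : i ≠ k) (c : F) :
    dg t * et h c * (dg t)⁻¹ = et h ((t i / t k : Fˣ) * c) := Units.ext (Matrix.ext fun a b => by
  rw [← map_inv, mul_dg_apply, dg_mul_apply, et_apply, et_apply]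
  by_cases e1 : a = b
  · subst e1
    rw [if_neg (fun e : i = a ∧ k = a => h (e.1.trans e.2.symm)), if_neg (fun e : i = a ∧ k = a => h (e.1.trans e.2.symm))]
    simp
  · rw [if_neg e1]
    split_ifs with e2
    · obtain ⟨rfl, rfl⟩ := e2
      simp [div_eq_mul_inv, mul_right_comm]
    · simp)

end Root

open Root

theorem Ce.root (h : Ce p ζ w G) {i k : I} (hik : i ≠ k) {c : F} (hc : c ≠ 0) (he : et hik c ∈ G) :
    specialLinear I F ≤ G := by
  have mv : ∀ {i k i' k' : I} (h1 : i ≠ k) (h2 : i' ≠ k') {c : F}, et h1 c ∈ G → et h2 c ∈ G := fun h1 h2 c he => by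
    obtain ⟨u, m, e1, e2⟩ := exists_af h1 h2
    exact pm_et _ h1 h2 e1 e2 c ▸ mul_mem (mul_mem (h.am u m) he) (inv_mem (h.am u m))
  have h10 : (1 : I) ≠ 0 := one_ne_zero
  let S : Subring F :=
    { carrier := {l | ∀ c, et h10 c ∈ G → et h10 (l * c) ∈ G}
      mul_mem' := fun {a b} ha hb c hc => mul_assoc a b c ▸ ha _ (hb c hc)
      one_mem' := fun c hc => (one_mul c).symm ▸ hc
      add_mem' := fun {a b} ha hb c hc => by rw [add_mul, et_add]; exact mul_mem (ha c hc) (hb c hc)
      zero_mem' := fun c _ => by rw [zero_mul, et_zero]; exact one_mem _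
      neg_mem' := fun {a} ha c hc => by rw [neg_mul, et_neg]; exact inv_mem (ha c hc) }
  let S' : Subfield F := { S with
    inv_mem' := fun a ha => by
      by_cases a0 : a = 0
      · rw [a0, _root_.inv_zero]; exact S.zero_mem
      have e := FiniteField.pow_card_sub_one_eq_one a a0
      obtain ⟨n, hn⟩ : ∃ n, Fintype.card F - 1 = n + 1 := ⟨Fintype.card F - 2, by have := Fintype.one_lt_card (α := F); omega⟩
      rw [hn, pow_succ] at e
      exact eq_inv_of_mul_eq_one_left e ▸ S.pow_mem ha n }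
  have hS : S' = ⊤ := h.gen S' fun c hc => by
    have := mul_mem (mul_mem h.x hc) (inv_mem h.x)
    rwa [xx, ad, dg_et, id, id, ze_one, ze_zero, div_one] at this
  refine sl_le_of_et fun a b hab d => mv h10 hab ?_
  have := (show d / c ∈ S' from hS ▸ Subfield.mem_top _) c (mv hik h10 he)
  rwa [div_mul_cancel₀ d hc] at this

theorem Ce.th (h : Ce p ζ w G) {t : I → Fˣ} (ht : dg t ∈ G) (i k : I) : hm k (t i ^ 7 / ∏ l, t l) ∈ G := by
  refine h.hm_mem (k := 0) ?_ k
  have h1 : ∏ u : Iˣ, (fun k => t (u * k + i)) ∈ G.comap dg := Subgroup.prod_mem _ fun u _ => by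
    have := mul_mem (mul_mem (inv_mem (h.am u i)) ht) (inv_mem (inv_mem (h.am u i)))
    rwa [← map_inv, pm_dg, inv_inv] at this
  have h2 : (fun _ => ((∏ l, t l) / t i)⁻¹) ∈ G.comap dg := by
    rw [Subgroup.mem_comap, dg_const]; exact h.sc (scal_mem _)
  convert Subgroup.mem_comap.1 (mul_mem h1 h2) using 1
  rw [hm]
  congr 1
  funext l
  rw [Pi.mul_apply, Finset.prod_apply]
  by_cases l0 : l = 0
  · subst l0
    simp only [Pi.mulSingle_eq_same, mul_zero, zero_add, Finset.prod_const, Finset.card_univ, ZMod.card_units 7,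
      inv_div]
    rw [mul_div_assoc', ← pow_succ]
  · rw [Pi.mulSingle_eq_of_ne l0, eq_mul_inv_iff_mul_eq, one_mul, div_eq_iff_eq_mul',
      ← Equiv.prod_comp ((Equiv.mulRight₀ l l0).trans (Equiv.addRight i)) t, Fintype.prod_eq_mul_prod_subtype_ne _ 0,
      ← Equiv.prod_comp (unitsEquivNeZero (G₀ := I))]
    simp

end Cfsg.Agent.XS
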