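import Cfsg.Agent.XS.Defs

set_option autoImplicit false
set_option linter.unusedSectionVars false

namespace Cfsg.Agent.XS

open Cfsg Cfsg.Geo Cfsg.Agent.H98 Cfsg.Agent.H99 Matrix
open Cfsg.Agent.N9 (pm dg On pm_apply dg_apply coe_dg pm_dg conj_pm mul_pm_apply pm_mul_apply dg_const)

variable {F : Type*} [Field F] [Fintype F] {ι : Type} [Fintype ι] [DecidableEq ι] {p : ℕ} {ζ : Fˣ}
  {w g : GL I F} {G : Subgroup (GL I F)} {e : ι → I} {v : GL ι F} {Γ K Q P : Subgroup (GL ι F)}

theorem w1_row (y : GL ι F) (i : ι) : ∃ k, (y : Matrix ι ι F) i k ≠ 0 := by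
  by_contra h
  push Not at h
  exact y.det_ne_zero (det_eq_zero_of_row_eq_zero i h)

theorem w1_supp {y : GL ι F} {t u : ι → Fˣ} {c : Fˣ} (h : y * dg t = H98.scal ι c * (dg u * y)) {i k : ι}
    (hy : (y : Matrix ι ι F) i k ≠ 0) : t k = c * u i := by
  have := congrArg (fun g : GL ι F => (g : Matrix ι ι F) i k) h
  simp only [← dg_const, mul_dg_apply, dg_mul_apply] at this
  exact Units.ext (mul_left_cancel₀ hy (by rw [this, Units.val_mul]; ring))

theorem WH.path (h : WH p ζ e v Γ) {x m : I} (hm : m ≠ 0) :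
    ¬ ∀ r : ℕ, r ≤ 6 → x + r * m ∈ Set.range e := fun hr => by
  have hs : Function.Surjective e := fun y => by
    have := hr ((y - x) / m).val (Nat.lt_succ_iff.1 (ZMod.val_lt _))
    rwa [ZMod.natCast_zmod_val, div_mul_cancel₀ _ hm, add_sub_cancel] at this
  have h1 := Fintype.card_le_of_surjective e hs
  have h2 := h.six
  rw [ZMod.card] at h1
  omega

theorem WH.nontriv (h : WH p ζ e v Γ) : Nontrivial ι := Fintype.one_lt_card_iff_nontrivial.1 h.two

theorem WH.diag (h : WH p ζ e v Γ) {y : GL ι F} (c : y * ad ζ e * y⁻¹ * (ad ζ e)⁻¹ ∈ scalars ι F) : ∃ t, y = dg t := by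
  obtain ⟨c, hc⟩ := mem_scalars_iff'.1 c
  have h1 : y * ad ζ e = H98.scal ι c * (ad ζ e * y) := by rw [← hc]; group
  have := h.nontriv
  obtain ⟨i₀⟩ : Nonempty ι := inferInstance
  obtain ⟨k₀, h0⟩ := w1_row y i₀
  have h2 : ∀ {i k : ι}, (y : Matrix ι ι F) i k ≠ 0 → e k = e i + (e k₀ - e i₀) := fun {i k} hy => by
    have a := w1_supp h1 hy
    have b := w1_supp h1 h0
    refine h.ze_inj ?_
    rw [h.ze_add, h.ze_sub, a, b, mul_div_cancel_right, mul_comm]
  by_cases hm : e k₀ - e i₀ = 0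
  · refine exists_dg fun i k hik => by_contra fun hy => hik (h.inj ?_)
    rw [h2 hy, hm, add_zero]
  · refine absurd (fun r _ => ?_) (h.path (x := e i₀) hm)
    induction r with
    | zero => exact ⟨i₀, by simp⟩
    | succ r ih =>
      obtain ⟨i, hi⟩ := ih (by omega)
      obtain ⟨k, hk⟩ := w1_row y i
      exact ⟨k, by rw [h2 hk, hi]; push_cast; ring⟩

theorem WH.scal (h : WH p ζ e v Γ) {t u : ι → Fˣ} (c : dg t * v = v * dg u) : (dg t : GL ι F) ∈ scalars ι F := by
  have h1 : ∀ i k, u k = 1 * t i := fun i k =>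
    w1_supp (by rw [scal_one, one_mul, c]) (h.ne i k)
  exact dg_mem_scalars.2 fun i k => mul_left_cancel (a := 1) ((h1 i i).symm.trans (h1 k i))

theorem WH.scal' (h : WH p ζ e v Γ) {y : GL ι F} (c1 : y * ad ζ e = ad ζ e * y)
    (c2 : v⁻¹ * y * v * ad ζ e = ad ζ e * (v⁻¹ * y * v)) : y ∈ scalars ι F := by
  obtain ⟨t, rfl⟩ := h.diag (y := y) (by rw [c1, mul_inv_cancel_right, mul_inv_cancel]; exact one_mem _)
  obtain ⟨u, hu⟩ := h.diag (y := v⁻¹ * dg t * v)
    (by rw [c2, mul_inv_cancel_right, mul_inv_cancel]; exact one_mem _)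
  exact h.scal (u := u) (by rw [← hu]; group)

theorem WH.a_ne (h : WH p ζ e v Γ) : ad ζ e ∉ scalars ι F := fun c => by
  have := h.nontriv
  obtain ⟨i, k, hik⟩ := exists_pair_ne ι
  exact hik (h.inj (h.ze_inj (dg_mem_scalars.1 c i k)))

theorem WH.v_ne (h : WH p ζ e v Γ) : v ∉ scalars ι F := fun c => by
  have := h.nontriv
  obtain ⟨i, k, hik⟩ := exists_pair_ne ι
  obtain ⟨c, hc⟩ := mem_scalars_iff'.1 c
  refine h.ne i k ?_
  rw [hc, coe_scal, Matrix.smul_apply, one_apply_ne hik, smul_zero]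

theorem WH.span (h : WH p ζ e v Γ) : grpAlg Γ = ⊤ := by
  let A : Subalgebra F (ι → F) := (grpAlg Γ).comap (diagonalAlgHom F)
  let d : ι → F := fun i => ze ζ (e i)
  have hd : d ∈ A := coe_mem_grpAlg h.a
  have dn : ∀ i k, k ≠ i → d i - d k ≠ 0 := fun i k hk c =>
    hk (h.inj (h.ze_inj (Units.ext (sub_eq_zero.1 c)))).symm
  have h1 : ∀ i, (Pi.single i 1 : ι → F) ∈ A := fun i => by
    have : (Pi.single i 1 : ι → F) =
        ∏ k ∈ Finset.univ.erase i, (d i - d k)⁻¹ • (d - algebraMap F (ι → F) (d k)) := by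
      ext l
      rw [Finset.prod_apply]
      by_cases hl : l = i
      · rw [hl, Pi.single_eq_same]
        exact (Finset.prod_eq_one fun k hk => by
          simpa using inv_mul_cancel₀ (dn i k (Finset.ne_of_mem_erase hk))).symm
      · rw [Pi.single_eq_of_ne hl]
        exact (Finset.prod_eq_zero (i := l) (by simp [hl]) (by simp)).symm
    rw [this]
    exact A.prod_mem fun k _ => A.smul_mem (A.sub_mem hd (A.algebraMap_mem _)) _
  have h2 : ∀ i k (c : F), single i k c ∈ grpAlg Γ := fun i k c => by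
    have a : diagonal (Pi.single i (1 : F)) ∈ grpAlg Γ := h1 i
    have b : diagonal (Pi.single k (1 : F)) ∈ grpAlg Γ := h1 k
    have := (grpAlg Γ).smul_mem (mul_mem (mul_mem a (coe_mem_grpAlg h.vm)) b) (c / (v : Matrix ι ι F) i k)
    convert this using 1
    ext i' k'
    rw [Matrix.smul_apply, mul_diagonal, diagonal_mul, single_apply]
    by_cases hi : i = i'
    · by_cases hk : k = k'
      · subst hi hk
        simp [div_mul_cancel₀ _ (h.ne i k)]
      · simp [hk, Pi.single_eq_of_ne (Ne.symm hk)]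
    · simp [hi, Pi.single_eq_of_ne (Ne.symm hi)]
  rw [eq_top_iff]
  intro M _
  rw [matrix_eq_sum_single M]
  exact sum_mem fun i _ => sum_mem fun k _ => h2 i k _

theorem WH.irr (h : WH p ζ e v Γ) : Irr Γ := irr_of_grpAlg_eq_top h.span

theorem WH.pgroup (h : WH p ζ e v Γ) (hQ : IsPGroup p Q) (hn : NzG Γ Q) : Q = ⊥ := by
  have : Fact p.Prime := ⟨h.prime⟩
  let W : Submodule F (ι → F) :=
    { carrier := {x | ∀ q ∈ Q, (q : Matrix ι ι F) *ᵥ x = x}
      zero_mem' := fun q _ => mulVec_zero _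
      add_mem' := fun ha hb q hq => by rw [mulVec_add, ha q hq, hb q hq]
      smul_mem' := fun c x hx q hq => by rw [mulVec_smul, hx q hq] }
  have hW : Inv Γ W := fun g hg x hx q hq => by
    have := hx _ (hn g⁻¹ (inv_mem hg) q hq)
    rw [inv_inv, Units.val_mul, Units.val_mul, ← mulVec_mulVec, ← mulVec_mulVec] at this
    conv_rhs => rw [← this, mulVec_inv_mulVec]
  rcases h.irr W hW with h0 | h0
  · exfalso
    have hp : p ∣ Nat.card (ι → F) := by
      have h2 := h.two
      rw [Nat.card_fun, Nat.card_eq_fintype_card, Nat.card_eq_fintype_card]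
      refine dvd_pow ?_ (by omega)
      rcases h.card with c | c <;> rw [c]
      exact dvd_pow_self _ (by norm_num)
    obtain ⟨b, hb, hb0⟩ := hQ.exists_fixed_point_of_prime_dvd_card_of_fixed_point (ι → F) hp
      (a := 0) fun q => mulVec_zero _
    have : b ∈ W := fun q hq => hb ⟨q, hq⟩
    rw [h0] at this
    exact hb0 this.symm
  · refine eq_bot_iff.2 fun q hq => Units.ext (matrix_ext_mulVec fun x => ?_)
    have : x ∈ W := h0 ▸ Submodule.mem_top
    rw [this q hq, Units.val_one, one_mulVec]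

end Cfsg.Agent.XS
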