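import Cfsg.Agent.XS.CJ
import Cfsg.Agent.XS.N0
import Cfsg.Agent.H42.ZStar

set_option autoImplicit false
set_option linter.unusedSectionVars false

namespace Cfsg.Agent.XS

open Cfsg Cfsg.Geo Cfsg.Agent.H98 Cfsg.Agent.H99 Matrix
open Cfsg.Agent.N9 (pm dg On pm_apply dg_apply coe_dg pm_dg conj_pm mul_pm_apply pm_mul_apply dg_const)

variable {F : Type*} [Field F] [Fintype F] {ι : Type} [Fintype ι] [DecidableEq ι] {p : ℕ} {ζ : Fˣ}
  {w g : GL I F} {G : Subgroup (GL I F)} {e : ι → I} {v : GL ι F} {Γ K Q P : Subgroup (GL ι F)}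

theorem Ce.zst (h : Ce p ζ w G)
    (iso : ∀ g ∈ G, g * jj F * g⁻¹ * jj F = jj F * (g * jj F * g⁻¹) → g * jj F = jj F * g) :
    ∃ O : Subgroup (GL I F), scalars I F ≤ O ∧ O ≤ G ∧ NzG G O ∧ Odd ((scalars I F).relIndex O) ∧
      xx ζ ∈ O ∧ sh F ∈ O := by
  classical
  have : Fact (Nat.Prime 2) := ⟨Nat.prime_two⟩
  have j1 : jj F ≠ 1 := fun e => jj_notMem (e ▸ one_mem _ : jj F ∈ scalars I F)
  obtain ⟨N, hN, ho, k⟩ := H42.zstar (z := (⟨jj F, h.j⟩ : G))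
    ⟨by rw [← Subgroup.orderOf_coe]; exact orderOf_eq_prime (by rw [pow_two]; exact jj_jj) j1,
    fun g c => Subtype.ext (mul_inv_eq_iff_eq_mul.2 (iso g g.2 (congrArg Subtype.val c.eq).symm))⟩
  have hc : Odd (Nat.card (N.map G.subtype)) := by rwa [Subgroup.card_subtype]
  have cj : ∀ g ∈ G, ∀ n ∈ N.map G.subtype, g * n * g⁻¹ ∈ N.map G.subtype := by
    rintro g hg _ ⟨n, hn, rfl⟩
    exact ⟨_, hN.conj_mem n hn ⟨g, hg⟩, rfl⟩
  have k' : ∀ g ∈ G, jj F * g * (jj F)⁻¹ * g⁻¹ ∈ N.map G.subtype := fun g hg => ⟨_, k ⟨g, hg⟩, rfl⟩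
  have hle : N.map G.subtype ≤ G := Subgroup.map_subtype_le _
  generalize N.map G.subtype = M at hc cj k' hle
  have hZn : (scalars I F).Normal := ⟨fun z hz x => by rwa [← scalars_comm hz, mul_inv_cancel_right]⟩
  have mem : ∀ y ∈ G, y ^ 7 = 1 → jj F * y * (jj F)⁻¹ = y⁻¹ → y ∈ M := fun y hy y7 e => by
    have h1 := k' y hy
    rw [e] at h1
    have : y = (y⁻¹ * y⁻¹) ^ 3 * y ^ 7 := by group
    rw [this, y7, mul_one]
    exact pow_mem h1 _
  refine ⟨M ⊔ scalars I F, le_sup_right, sup_le hle h.sc, ?_, ?_,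
    Subgroup.mem_sup_left (mem _ h.x (h.ad_pow7 _) h.toFe.j_x), Subgroup.mem_sup_left (mem _ h.s sh_pow7 j_sh)⟩
  · intro g hg y hy
    obtain ⟨m, hm, z, hz, rfl⟩ := Subgroup.mem_sup_of_normal_right.1 hy
    have : g * (m * z) * g⁻¹ = g * m * g⁻¹ * (g * z * g⁻¹) := by group
    rw [this]
    exact mul_mem (Subgroup.mem_sup_left (cj g hg m hm)) (Subgroup.mem_sup_right (hZn.conj_mem z hz g))
  · rw [Subgroup.relIndex_sup_right]
    exact hc.of_dvd_nat (Subgroup.relIndex_dvd_card _ _)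

end Cfsg.Agent.XS
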